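import Cfsg.Agent.Lib.Helper25.Sd.Defs

/-! Ladder SD (S5961), rung ADJ. -/

set_option autoImplicit false

namespace Cfsg.Agent.Lib.Helper25.Sd

open Module Polynomial Cfsg.Agent.Lib.Helper25.Elu Cfsg.Agent.Lib.Helper99

variable {F : Type*} [Field F] {V : Type*} [AddCommGroup V] [Module F V] [FiniteDimensional F V]
  {B : LinearMap.BilinForm F V} {T : End F V} {r : ℕ}

/-- `B (T^j u) v = B u ((T^(r-1))^j v)` by induction, then `Polynomial.aeval_eq_sum_range`. -/
theorem adj_step_one (h : Ctx B T r) (hr : 0 < r) (u v : V) : B (T u) v = B u ((T ^ (r - 1)) v) := by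
  have e : T * T ^ (r - 1) = 1 := by
    rw [← pow_succ', Nat.sub_add_cancel hr, h.pow]
  have e' : T ((T ^ (r - 1)) v) = v := by
    rw [← Module.End.mul_apply, e, Module.End.one_apply]
  calc B (T u) v = B (T u) (T ((T ^ (r - 1)) v)) := by rw [e']
    _ = B u ((T ^ (r - 1)) v) := h.iso _ _

theorem adj_pow (h : Ctx B T r) (hr : 0 < r) (j : ℕ) (u v : V) :
    B ((T ^ j) u) v = B u (((T ^ (r - 1)) ^ j) v) := by
  induction j generalizing u v with
  | zero => simp
  | succ j ih =>
    rw [pow_succ', Module.End.mul_apply, adj_step_one h hr, ih, pow_succ, Module.End.mul_apply]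

theorem adj_aeval (h : Ctx B T r) (hr : 0 < r) (f : F[X]) (u v : V) :
    B (aeval T f u) v = B u (aeval (T ^ (r - 1)) f v) := by
  induction f using Polynomial.induction_on' with
  | add p q hp hq =>
    rw [map_add, map_add, LinearMap.add_apply, LinearMap.add_apply, map_add, LinearMap.add_apply,
      map_add, hp, hq]
  | monomial n a =>
    rw [aeval_monomial, aeval_monomial, Module.End.mul_apply, Module.End.mul_apply,
      Module.algebraMap_end_apply, Module.algebraMap_end_apply, map_smul, LinearMap.smul_apply,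
      map_smul, adj_pow h hr]

theorem adj_aeval' (h : Ctx B T r) (hr : 0 < r) (f : F[X]) (u v : V) :
    B u (aeval T f v) = B (aeval (T ^ (r - 1)) f u) v := by
  rw [skew_of_alt h.alt, adj_aeval h hr, skew_of_alt h.alt, neg_neg]

end Cfsg.Agent.Lib.Helper25.Sd
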