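import Cfsg.Agent.Lib.Helper25.Sd.Defs
import Cfsg.Agent.Lib.Helper99.SympForm
import Cfsg.Agent.Lib.Helper17.Symp

/-! Ladder SD (S5961), rung BRIDGE. -/

set_option autoImplicit false

namespace Cfsg.Agent.Lib.Helper25.Sd

open Module Polynomial Cfsg.Agent.Lib.Helper25.Elu Cfsg.Agent.Lib.Helper99

variable {F : Type*} [Field F] {d : ℕ}

/-- `sympB_iso` (Helper99/SympForm). -/
theorem isIso_toLin (A : Matrix.symplecticGroup (Fin d) F) :
    IsIso (sympB d) (Matrix.toLin' (A : Matrix (Fin d ⊕ Fin d) (Fin d ⊕ Fin d) F)) :=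
  fun u v => sympB_iso d A u v

/-- `Cfsg.Agent.Lib.Helper17.mem_symplecticGroup_iff_sympForm` (Helper17/Symp) for `A = LinearMap.toMatrix' T`. -/
theorem exists_sp_of_isIso (T : End F (Fin d ⊕ Fin d → F)) (hT : IsIso (sympB d) T) :
    ∃ A : Matrix.symplecticGroup (Fin d) F,
      Matrix.toLin' (A : Matrix (Fin d ⊕ Fin d) (Fin d ⊕ Fin d) F) = T := by
  refine ⟨⟨LinearMap.toMatrix' T, ?_⟩, Matrix.toLin'_toMatrix' T⟩
  rw [Cfsg.Agent.Lib.Helper17.mem_symplecticGroup_iff_sympForm]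
  intro u v
  have h := hT u v
  rw [sympB_apply, sympB_apply] at h
  rw [← Matrix.toLin'_apply, ← Matrix.toLin'_apply, Matrix.toLin'_toMatrix']
  exact h

end Cfsg.Agent.Lib.Helper25.Sd
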