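import Cfsg.Agent.Lib.Helper25.Sd.Defs
import Cfsg.Agent.Lib.Helper99.DetPlanes

/-! Ladder SD (S5961), rung EVEN. -/

set_option autoImplicit false

namespace Cfsg.Agent.Lib.Helper25.Sd

open Module Polynomial Cfsg.Agent.Lib.Helper25.Elu Cfsg.Agent.Lib.Helper99

variable {F : Type*} [Field F] {V : Type*} [AddCommGroup V] [Module F V] [FiniteDimensional F V]
  {B : LinearMap.BilinForm F V} {T : End F V} {r : ℕ}

/-- `Cfsg.Agent.Lib.Helper99.exists_hyperbolic_basis` (file Helper99/DetPlanes) applied to `B.restrict W` on `↥W`: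
a basis indexed by `κ × Fin 2`. -/
theorem even_finrank (hB : B.IsAlt) {W : Submodule F V} (hW : NondegOn B W) :
    Even (finrank F W) := by
  have hB' : (B.restrict W).IsAlt := fun x => hB x.1
  have hnd : NondegOn (B.restrict W) ⊤ := by
    intro v _ hv
    obtain ⟨y, hy, hvy⟩ := hW v.1 v.2 (fun h => hv (Subtype.ext h))
    exact ⟨⟨y, hy⟩, trivial, hvy⟩
  obtain ⟨ι, _, _, ee, -, -⟩ := exists_hyperbolic_basis hB' hnd
  rw [finrank_eq_card_basis ee, Fintype.card_prod, Fintype.card_fin]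
  exact even_two.mul_left _

end Cfsg.Agent.Lib.Helper25.Sd
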