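import Cfsg.Agent.Lib.Helper25.Sd.Defs
import Cfsg.Agent.Lib.Helper25.Sd.EVEN
import Cfsg.Agent.Lib.Helper99.SympForm
import Cfsg.Agent.Lib.Helper99.SympIndex
import Cfsg.Agent.Lib.Helper17.SympFrame

/-! Ladder SD (S5961), rung TRANS. -/

set_option autoImplicit false

namespace Cfsg.Agent.Lib.Helper25.Sd

open Module Polynomial Cfsg.Agent.Lib.Helper25.Elu Cfsg.Agent.Lib.Helper99

variable {F : Type*} [Field F] {d : ℕ}

theorem trans_span {V : Type*} [AddCommGroup V] [Module F V] {W : Submodule F V} {κ : Type*}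
    (b : Basis κ F W) : Submodule.span F (Set.range fun l => (b l : V)) = W := by
  have h1 := b.span_eq
  have h2 := congrArg (Submodule.map W.subtype) h1
  rw [Submodule.map_span, Submodule.map_subtype_top, ← Set.range_comp] at h2
  exact h2

theorem trans_coords {a m : ℕ} (hm : a = 2 * m) (W : Submodule F (Fin d ⊕ Fin d → F))
    (hW : NondegOn (sympB d) W) (hf : finrank F W = a) :
    ∃ b : Basis (Fin m ⊕ Fin m) F W, ∀ l l',
      sympB d (b l : Fin d ⊕ Fin d → F) (b l' : Fin d ⊕ Fin d → F) =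
        sympB m (Pi.single l (1 : F)) (Pi.single l' (1 : F)) := by
  classical
  obtain ⟨Φ, hΦ⟩ := exists_symplectic_coords (B := (sympB d).restrict W)
    (fun x => sympB_isAlt d (x : Fin d ⊕ Fin d → F))
    (by
      intro v _ hv
      obtain ⟨y, hy, hvy⟩ := hW v.1 v.2 (fun h => hv (Subtype.ext h))
      exact ⟨⟨y, hy⟩, trivial, hvy⟩) (m := m) (by rw [hf, hm])
  refine ⟨(Pi.basisFun F _).map Φ, fun l l' => ?_⟩
  rw [Basis.map_apply, Basis.map_apply, Pi.basisFun_apply, Pi.basisFun_apply, ← hΦ]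
  rfl

/-- `exists_symplectic_coords` (Helper99/SympIndex) for each `D j`, `D' j` (restricted forms, `a = 2 m`): `x (j, l) = Φ_j (e_l)`,
`y (j, l) = Φ'_j (e_l)`; both families are linearly independent (they span `⊤` and have `2 d` members, cf. Dec/CNTD
`card_fiber`) with the same Gram matrix: `Cfsg.Agent.Lib.Helper17.sp_witt_frame` (Helper17/SympFrame). -/
theorem exists_sp_map {a t : ℕ} {D D' : Fin t → Submodule F (Fin d ⊕ Fin d → F)}
    (hD : SDec (sympB d) a D) (hD' : SDec (sympB d) a D') :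
    ∃ A : Matrix.symplecticGroup (Fin d) F, ∀ j,
      (D j).map (Matrix.toLin' (A : Matrix (Fin d ⊕ Fin d) (Fin d ⊕ Fin d) F)) = D' j := by
  classical
  have ht : 0 < t := by
    have := hD.dec.two_le
    omega
  obtain ⟨m, hm⟩ : ∃ m, a = 2 * m := by
    have h1 := even_finrank (sympB_isAlt d) (hD.nd ⟨0, ht⟩)
    rw [hD.dec.finrank_eq] at h1
    obtain ⟨m, hm⟩ := h1
    exact ⟨m, by omega⟩
  choose b hb using fun j => trans_coords hm (D j) (hD.nd j) (hD.dec.finrank_eq j)
  choose b' hb' using fun j => trans_coords hm (D' j) (hD'.nd j) (hD'.dec.finrank_eq j)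
  have hI := DirectSum.isInternal_submodule_of_iSupIndep_of_iSup_eq_top hD.dec.indep
    hD.dec.iSup_eq_top
  have hI' := DirectSum.isInternal_submodule_of_iSupIndep_of_iSup_eq_top hD'.dec.indep
    hD'.dec.iSup_eq_top
  have hx : ∀ i : Σ _ : Fin t, (Fin m ⊕ Fin m), hI.collectedBasis b i = (b i.1 i.2 : Fin d ⊕ Fin d → F) := by
    intro i
    rw [DirectSum.IsInternal.collectedBasis_coe]
  have hy : ∀ i : Σ _ : Fin t, (Fin m ⊕ Fin m), hI'.collectedBasis b' i = (b' i.1 i.2 : Fin d ⊕ Fin d → F) := by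
    intro i
    rw [DirectSum.IsInternal.collectedBasis_coe]
  obtain ⟨A, hA⟩ := Cfsg.Agent.Lib.Helper17.sp_witt_frame d (hI.collectedBasis b)
    (hI'.collectedBasis b') (Basis.linearIndependent _) (Basis.linearIndependent _) (by
      rintro ⟨j, l⟩ ⟨j', l'⟩
      rw [hx, hx, hy, hy, ← sympB_apply, ← sympB_apply]
      by_cases hj : j = j'
      · subst hj
        rw [hb, hb']
      · rw [hD.orth j j' hj _ (b j l).2 _ (b j' l').2, hD'.orth j j' hj _ (b' j l).2 _ (b' j' l').2])
  refine ⟨A, fun j => ?_⟩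
  conv_lhs => rw [← trans_span (b j)]
  rw [Submodule.map_span, ← Set.range_comp, ← trans_span (b' j)]
  congr 2
  funext l
  have := hA ⟨j, l⟩
  rw [hx, hy] at this
  simpa [Matrix.toLin'_apply] using this

end Cfsg.Agent.Lib.Helper25.Sd
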