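import Cfsg.Agent.Lib.Helper25.Sd.Defs
import Cfsg.Agent.Lib.Helper25.Sd.TRANS
import Cfsg.Agent.Lib.Helper25.Sd.BRIDGE

/-! Ladder SD (S5961), rung CAUCHY. -/

set_option autoImplicit false

namespace Cfsg.Agent.Lib.Helper25.Sd

open Module Polynomial Cfsg.Agent.Lib.Helper25.Elu Cfsg.Agent.Lib.Helper99

variable {F : Type*} [Field F] {d : ℕ}

/-- the linear equivalence of a symplectic matrix. -/
noncomputable def cauchyEquiv (A : Matrix.symplecticGroup (Fin d) F) :
    (Fin d ⊕ Fin d → F) ≃ₗ[F] (Fin d ⊕ Fin d → F) :=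
  Matrix.toLin'OfInv
    (M := ((A⁻¹ : Matrix.symplecticGroup (Fin d) F) : Matrix (Fin d ⊕ Fin d) (Fin d ⊕ Fin d) F))
    (M' := (A : Matrix (Fin d ⊕ Fin d) (Fin d ⊕ Fin d) F))
    (congrArg Subtype.val (inv_mul_cancel A)) (congrArg Subtype.val (mul_inv_cancel A))

theorem cauchy_sdec {a t : ℕ} (A : Matrix.symplecticGroup (Fin d) F)
    {D : Fin t → Submodule F (Fin d ⊕ Fin d → F)} (hD : SDec (sympB d) a D) :
    SDec (sympB d) a (fun j => (D j).map
      (Matrix.toLin' (A : Matrix (Fin d ⊕ Fin d) (Fin d ⊕ Fin d) F))) := by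
  have hiso := isIso_toLin A
  have hmap : ∀ W : Submodule F (Fin d ⊕ Fin d → F),
      W.map (Matrix.toLin' (A : Matrix (Fin d ⊕ Fin d) (Fin d ⊕ Fin d) F))
        = W.map ((cauchyEquiv A : (Fin d ⊕ Fin d → F) ≃ₗ[F] (Fin d ⊕ Fin d → F)) :
            (Fin d ⊕ Fin d → F) →ₗ[F] (Fin d ⊕ Fin d → F)) := fun W => rfl
  refine ⟨⟨hD.dec.two_le, hD.dec.pos, fun i => ?_, ?_, ?_⟩, ?_, ?_⟩
  · show finrank F ((D i).map (Matrix.toLin' (A : Matrix (Fin d ⊕ Fin d) (Fin d ⊕ Fin d) F))) = a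
    rw [hmap, LinearEquiv.finrank_map_eq]
    exact hD.dec.finrank_eq i
  · have := hD.dec.indep.map_orderIso (Submodule.orderIsoMapComap (cauchyEquiv A))
    exact this
  · show ⨆ j, (D j).map (Matrix.toLin' (A : Matrix (Fin d ⊕ Fin d) (Fin d ⊕ Fin d) F)) = ⊤
    rw [← Submodule.map_iSup, hD.dec.iSup_eq_top, hmap, Submodule.map_top]
    exact LinearEquiv.range (cauchyEquiv A)
  · intro j v hv hv0
    obtain ⟨u, hu, rfl⟩ := hv
    have hu0 : u ≠ 0 := by
      rintro rfl
      exact hv0 (map_zero _)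
    obtain ⟨y, hy, hBy⟩ := hD.nd j u hu hu0
    exact ⟨_, ⟨y, hy, rfl⟩, by rw [hiso]; exact hBy⟩
  · intro j j' hjj' u hu w hw
    obtain ⟨u, hu, rfl⟩ := hu
    obtain ⟨w, hw, rfl⟩ := hw
    rw [hiso]
    exact hD.orth j j' hjj' u hu w hw

/-- the action of `Sp` on families of subspaces. -/
@[reducible] noncomputable def cauchyAction (t : ℕ) :
    MulAction (Matrix.symplecticGroup (Fin d) F) (Fin t → Submodule F (Fin d ⊕ Fin d → F)) where
  smul A D := fun j => (D j).map (Matrix.toLin' (A : Matrix (Fin d ⊕ Fin d) (Fin d ⊕ Fin d) F))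
  one_smul D := by
    funext j
    show (D j).map (Matrix.toLin' ((1 : Matrix.symplecticGroup (Fin d) F) :
      Matrix (Fin d ⊕ Fin d) (Fin d ⊕ Fin d) F)) = D j
    rw [show ((1 : Matrix.symplecticGroup (Fin d) F) :
      Matrix (Fin d ⊕ Fin d) (Fin d ⊕ Fin d) F) = 1 from rfl, Matrix.toLin'_one, Submodule.map_id]
  mul_smul A A' D := by
    funext j
    show (D j).map (Matrix.toLin' ((A * A' : Matrix.symplecticGroup (Fin d) F) :
      Matrix (Fin d ⊕ Fin d) (Fin d ⊕ Fin d) F))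
      = ((D j).map (Matrix.toLin' (A' : Matrix (Fin d ⊕ Fin d) (Fin d ⊕ Fin d) F))).map
        (Matrix.toLin' (A : Matrix (Fin d ⊕ Fin d) (Fin d ⊕ Fin d) F))
    rw [show ((A * A' : Matrix.symplecticGroup (Fin d) F) :
      Matrix (Fin d ⊕ Fin d) (Fin d ⊕ Fin d) F)
        = (A : Matrix (Fin d ⊕ Fin d) (Fin d ⊕ Fin d) F)
          * (A' : Matrix (Fin d ⊕ Fin d) (Fin d ⊕ Fin d) F) from rfl,
      Matrix.toLin'_mul, Submodule.map_comp]

/-- `Sp` acts on the decompositions (`A • D = fun j => (D j).map (toLin' A)`, an `SDec` by BRIDGE), transitively (TRANS):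
the number of decompositions is the index of a stabiliser (`MulAction.index_stabilizer_of_transitive`), it divides `|Sp|`;
Cauchy `exists_prime_orderOf_dvd_card'`. -/
theorem exists_order_r [Fintype F] {r : ℕ} [Fact r.Prime] {a t : ℕ}
    (hne : ∃ D : Fin t → Submodule F (Fin d ⊕ Fin d → F), SDec (sympB d) a D)
    (hdvd : r ∣ Nat.card {D : Fin t → Submodule F (Fin d ⊕ Fin d → F) // SDec (sympB d) a D}) :
    ∃ A : Matrix.symplecticGroup (Fin d) F, orderOf A = r := by
  classical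
  obtain ⟨D₀, hD₀⟩ := hne
  let _ := cauchyAction (F := F) (d := d) t
  have horb : MulAction.orbit (Matrix.symplecticGroup (Fin d) F) D₀
      = {D | SDec (sympB d) a D} := by
    ext D
    constructor
    · rintro ⟨A, rfl⟩
      exact cauchy_sdec A hD₀
    · intro hD
      obtain ⟨A, hA⟩ := exists_sp_map hD₀ hD
      exact ⟨A, funext hA⟩
  have hcard : Nat.card {D : Fin t → Submodule F (Fin d ⊕ Fin d → F) // SDec (sympB d) a D}
      = (MulAction.stabilizer (Matrix.symplecticGroup (Fin d) F) D₀).index := by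
    rw [MulAction.index_stabilizer, horb]
    rfl
  have hfin : Finite (Matrix.symplecticGroup (Fin d) F) := inferInstance
  have h2 : r ∣ Nat.card (Matrix.symplecticGroup (Fin d) F) :=
    (hcard ▸ hdvd).trans (Subgroup.index_dvd_card _)
  exact exists_prime_orderOf_dvd_card' r h2

end Cfsg.Agent.Lib.Helper25.Sd
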