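import Cfsg.Agent.Lib.Helper25.Sd.Defs
import Cfsg.Agent.Lib.Helper25.Elu.ORD

/-! Ladder SD (S5961), rung CCA. -/

set_option autoImplicit false

namespace Cfsg.Agent.Lib.Helper25.Sd

open Module Polynomial Cfsg.Agent.Lib.Helper25.Elu Cfsg.Agent.Lib.Helper99

/-- arithmetic of `cc`. `ordq ∣ r - 1` (`ZMod.pow_card_sub_one_eq_one`), `r - 1` even. -/
theorem cc_even (F : Type*) [Fintype F] (r : ℕ) : Even (cc F r) := by
  unfold cc
  split_ifs with h
  · exact h
  · exact even_two_mul _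

theorem ordq_dvd_cc (F : Type*) [Fintype F] (r : ℕ) : ordq F r ∣ cc F r := by
  unfold cc
  split_ifs with h
  · exact dvd_rfl
  · exact Dvd.intro_left 2 rfl

theorem cc_pos {F : Type*} [Field F] [Fintype F] {p : ℕ} [Fact p.Prime] [CharP F p] {r : ℕ}
    [Fact r.Prime] (hrp : r ≠ p) : 0 < cc F r := by
  have := ordq_pos (F := F) hrp
  unfold cc
  split_ifs with h <;> omega

theorem cc_dvd_of {F : Type*} [Fintype F] {r m : ℕ} (h1 : ordq F r ∣ m) (h2 : Even m) :
    cc F r ∣ m := by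
  unfold cc
  split_ifs with h
  · exact h1
  · have hodd : Odd (ordq F r) := Nat.not_even_iff_odd.1 h
    have hcop : Nat.Coprime 2 (ordq F r) := Nat.coprime_two_left.2 hodd
    exact hcop.mul_dvd_of_dvd_of_dvd h2.two_dvd h1

theorem cc_le_pred {F : Type*} [Field F] [Fintype F] {p : ℕ} [Fact p.Prime] [CharP F p] {r : ℕ}
    [Fact r.Prime] (hrp : r ≠ p) (hr2 : r ≠ 2) : cc F r ≤ r - 1 := by
  have hr : r.Prime := Fact.out
  have h1 : ordq F r ∣ r - 1 := by
    unfold ordq
    apply orderOf_dvd_of_pow_eq_one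
    apply ZMod.pow_card_sub_one_eq_one
    intro h
    rw [ZMod.natCast_eq_zero_iff] at h
    exact not_dvd_card hrp h
  have h2 : Even (r - 1) := by
    have := hr.odd_of_ne_two hr2
    obtain ⟨k, hk⟩ := this
    exact ⟨k, by omega⟩
  have h3 := hr.two_le
  exact Nat.le_of_dvd (by omega) (cc_dvd_of h1 h2)

end Cfsg.Agent.Lib.Helper25.Sd
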