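import Cfsg.Agent.Lib.Helper25.Sd.Defs

/-! Ladder SD (S5961), rung FIXND. -/

set_option autoImplicit false

namespace Cfsg.Agent.Lib.Helper25.Sd

open Module Polynomial Cfsg.Agent.Lib.Helper25.Elu Cfsg.Agent.Lib.Helper99

variable {F : Type*} [Field F] {V : Type*} [AddCommGroup V] [Module F V] [FiniteDimensional F V]
  {B : LinearMap.BilinForm F V} {T : End F V} {r : ℕ}

omit [FiniteDimensional F V] in
theorem iso_pow (h : IsIso B T) (s : ℕ) : IsIso B (T ^ s) := by
  induction s with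
  | zero => intro u v; rfl
  | succ s ih =>
    intro u v
    rw [pow_succ', Module.End.mul_apply, Module.End.mul_apply, h, ih]

omit [FiniteDimensional F V] in
/-- `u ∈ W ⊓ Fx T`, `B u y ≠ 0`, `y ∈ W`: `N y = ∑_{s<r} T^s y ∈ W ⊓ Fx T` and `B u (N y) = r B u y`
(`B u (T^s y) = B (T^s u) (T^s y) = B u y`). -/
theorem nondegOn_inf_fix (h : Ctx B T r) (hrF : (r : F) ≠ 0) {W : Submodule F V} (hW : Good B T W) :
    NondegOn B (W ⊓ Fx T) := by
  rintro u ⟨huW, huF⟩ hu0
  obtain ⟨y, hy, hne⟩ := hW.nd u huW hu0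
  have hTu : T u = u := mem_Fx.1 huF
  have hpow : ∀ s : ℕ, (T ^ s) u = u := by
    intro s
    induction s with
    | zero => rfl
    | succ s ih => rw [pow_succ', Module.End.mul_apply, ih, hTu]
  obtain ⟨N, hN⟩ : ∃ N : End F V, N = ∑ s ∈ Finset.range r, T ^ s := ⟨_, rfl⟩
  have h1 : (T - 1) * N = 0 := by rw [hN, mul_geom_sum, h.pow, sub_self]
  refine ⟨N y, ⟨?_, ?_⟩, ?_⟩
  · rw [hN, LinearMap.sum_apply]
    exact Submodule.sum_mem _ fun s _ => hW.inv.pow s y hy
  · exact congrArg (fun f : End F V => f y) h1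
  · have h2 : B u (N y) = (r : F) * B u y := by
      rw [hN, LinearMap.sum_apply, map_sum]
      have h3 : ∀ s ∈ Finset.range r, B u ((T ^ s) y) = B u y := by
        intro s _
        conv_lhs => rw [← hpow s]
        exact iso_pow h.iso s u y
      rw [Finset.sum_congr rfl h3, Finset.sum_const, Finset.card_range, nsmul_eq_mul]
    rw [h2]
    exact mul_ne_zero hrF hne

end Cfsg.Agent.Lib.Helper25.Sd
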