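import Cfsg.Agent.Lib.Helper25.Sd.Defs
import Cfsg.Agent.Lib.Helper25.Sd.EVEN
import Cfsg.Agent.Lib.Helper25.Sd.FIXND
import Cfsg.Agent.Lib.Helper25.Elu.SPLIT
import Cfsg.Agent.Lib.Helper25.Elu.DIVI

/-! Ladder SD (S5961), rung DVD. -/

set_option autoImplicit false

namespace Cfsg.Agent.Lib.Helper25.Sd

open Module Polynomial Cfsg.Agent.Lib.Helper25.Elu Cfsg.Agent.Lib.Helper99

variable {F : Type*} [Field F] {V : Type*} [AddCommGroup V] [Module F V] [FiniteDimensional F V]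
  {B : LinearMap.BilinForm F V} {T : End F V} {r : ℕ}

/-- `exists_split` (Elu/SPLIT): `dim W = dim (W ⊓ C) + dim (W ⊓ D)`; `ordq ∣ dim (W ⊓ D)` (`ordq_dvd_finrank`, Elu/DIVI);
`dim W` and `dim (W ⊓ C)` are even (EVEN, FIXND), so `dim (W ⊓ D)` is even; `cc ∣ dim (W ⊓ D)`. -/
theorem exists_finrank_eq [Fintype F] {p : ℕ} [Fact p.Prime] [CharP F p] [Fact r.Prime] (hrp : r ≠ p) (h : Ctx B T r) {W : Submodule F V} (hW : Good B T W) :
    ∃ b, finrank F W = finrank F ↥(W ⊓ Fx T) + cc F r * b := by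
  have hrF : (r : F) ≠ 0 := by
    intro h0
    rw [CharP.cast_eq_zero_iff F p r] at h0
    exact hrp ((Nat.prime_dvd_prime_iff_eq (Fact.out : p.Prime) (Fact.out : r.Prime)).1 h0).symm
  obtain ⟨D, hDinv, hcompl, hsplit⟩ := exists_split T hrF h.pow
  have e := hsplit W hW.inv
  have hinv : IsInv T (W ⊓ D) := fun v hv => ⟨hW.inv v hv.1, hDinv v hv.2⟩
  have hfix : ∀ w ∈ W ⊓ D, T w = w → w = 0 := by
    intro w hw hTw
    have h1 : w ∈ LinearMap.ker (T - 1) := mem_Fx.2 hTw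
    exact (Submodule.disjoint_def.1 hcompl.disjoint) w h1 hw.2
  have hdvd : ordq F r ∣ finrank F ↥(W ⊓ D) := ordq_dvd_finrank T hrp h.pow (W ⊓ D) hinv hfix
  have hev1 : Even (finrank F W) := even_finrank h.alt hW.nd
  have hev2 : Even (finrank F ↥(W ⊓ Fx T)) := even_finrank h.alt (nondegOn_inf_fix h hrF hW)
  have hev3 : Even (finrank F ↥(W ⊓ D)) := by
    rw [e] at hev1
    exact (Nat.even_add.1 hev1).1 hev2
  have hcc : cc F r ∣ finrank F ↥(W ⊓ D) := by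
    unfold cc
    split_ifs with hE
    · exact hdvd
    · have hodd : Odd (ordq F r) := Nat.not_even_iff_odd.1 hE
      have hcop : Nat.Coprime 2 (ordq F r) := (Nat.coprime_two_left).2 hodd
      exact hcop.mul_dvd_of_dvd_of_dvd (even_iff_two_dvd.1 hev3) hdvd
  obtain ⟨b, hb⟩ := hcc
  exact ⟨b, by rw [e, hb]⟩

end Cfsg.Agent.Lib.Helper25.Sd
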