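import Mathlib
import Cfsg.Prelude.Def_GeometricClasses
import Cfsg.Agent.Lib.Helper25.Elu.Defs
import Cfsg.Agent.Lib.Helper99.Symp

/-! Ladder SD (S5961): definitions. -/

set_option autoImplicit false

namespace Cfsg.Agent.Lib.Helper25.Sd

open Module Cfsg.Agent.Lib.Helper25.Elu Cfsg.Agent.Lib.Helper99

section
variable {F : Type*} [Field F] {V : Type*} [AddCommGroup V] [Module F V]

/-- `T` is an isometry of `B`. -/
def IsIso (B : LinearMap.BilinForm F V) (T : End F V) : Prop := ∀ u v, B (T u) (T v) = B u v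

/-- `U ⊥ W`. -/
def Orth (B : LinearMap.BilinForm F V) (U W : Submodule F V) : Prop := ∀ u ∈ U, ∀ w ∈ W, B u w = 0

/-- the fixed space of `T`. -/
abbrev Fx (T : End F V) : Submodule F V := LinearMap.ker (T - 1)

/-- the standing hypotheses: `B` alternating, `T` an isometry with `T ^ r = 1`. -/
structure Ctx (B : LinearMap.BilinForm F V) (T : End F V) (r : ℕ) : Prop where
  alt : B.IsAlt
  iso : IsIso B T
  pow : T ^ r = 1

/-- `W` is nondegenerate and `T`-invariant. -/
structure Good (B : LinearMap.BilinForm F V) (T : End F V) (W : Submodule F V) : Prop where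
  nd : NondegOn B W
  inv : IsInv T W

theorem mem_Fx {T : End F V} {v : V} : v ∈ Fx T ↔ T v = v := by
  rw [LinearMap.mem_ker, LinearMap.sub_apply, Module.End.one_apply, sub_eq_zero]

theorem Orth.symm {B : LinearMap.BilinForm F V} (hB : B.IsAlt) {U W : Submodule F V}
    (h : Orth B U W) : Orth B W U := by
  intro w hw u hu
  rw [skew_of_alt hB, h u hu w hw, neg_zero]

end

/-- `c = i` if `i = ord_r(q)` is even, `2 i` otherwise. -/
noncomputable def cc (F : Type*) [Fintype F] (r : ℕ) : ℕ :=
  if Even (ordq F r) then ordq F r else 2 * ordq F r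

section
variable {F : Type*} [Field F] {ι : Type}

/-- an orthogonal decomposition into nondegenerate subspaces of dimension `a`. -/
structure SDec (B : LinearMap.BilinForm F (ι → F)) (a : ℕ) {t : ℕ}
    (D : Fin t → Submodule F (ι → F)) : Prop where
  dec : Cfsg.Geo.IsMDecomposition a D
  nd : ∀ j, NondegOn B (D j)
  orth : ∀ j j', j ≠ j' → Orth B (D j) (D j')

/-- `T` permutes the summands of such a decomposition. -/
def SStab (B : LinearMap.BilinForm F (ι → F)) (T : End F (ι → F)) (a t : ℕ) : Prop :=
  ∃ D : Fin t → Submodule F (ι → F), SDec B a D ∧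
    ∃ σ : Equiv.Perm (Fin t), ∀ j, (D j).map T = D (σ j)

end

end Cfsg.Agent.Lib.Helper25.Sd
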