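import Cfsg.Agent.Lib.Helper25.Sd.Defs

/-! Ladder SD (S5961), rung GLUE. -/

set_option autoImplicit false

namespace Cfsg.Agent.Lib.Helper25.Sd

open Module Polynomial Cfsg.Agent.Lib.Helper25.Elu Cfsg.Agent.Lib.Helper99

variable {F : Type*} [Field F] {V : Type*} [AddCommGroup V] [Module F V] [FiniteDimensional F V]
  {B : LinearMap.BilinForm F V} {T : End F V} {r : ℕ}

/-- `π` = projection onto `P` along `P^⊥` (`IsCompl` from PERP with `U = ⊤` needs no nondegeneracy of `⊤`: use
`LinearMap.BilinForm.isCompl_orthogonal_of_restrict_nondegenerate`); `T' v = S (π v) + T (v - π v)`. -/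
theorem exists_glue (hB : B.IsAlt) {P : Submodule F V} (hP : NondegOn B P) (S : P →ₗ[F] P)
    (T : End F V) :
    ∃ T' : End F V, (∀ v : P, T' (v : V) = (S v : V)) ∧ ∀ v ∈ B.orthogonal P, T' v = T v := by
  have hrefl : B.IsRefl := hB.isRefl
  have hnd : (B.restrict P).Nondegenerate := by
    rw [LinearMap.BilinForm.nondegenerate_iff_ker_eq_bot]
    rw [LinearMap.ker_eq_bot']
    intro v hv
    by_contra hv0
    obtain ⟨y, hy, hvy⟩ := hP (v : V) v.2 (fun h => hv0 (Subtype.ext h))
    apply hvy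
    have := LinearMap.congr_fun hv ⟨y, hy⟩
    simpa using this
  have hc : IsCompl P (B.orthogonal P) :=
    LinearMap.BilinForm.isCompl_orthogonal_of_restrict_nondegenerate hrefl hnd
  refine ⟨(P.subtype ∘ₗ S ∘ₗ P.projectionOnto _ hc) +
      (T ∘ₗ (LinearMap.id - P.subtype ∘ₗ P.projectionOnto _ hc)), ?_, ?_⟩
  · intro v
    have h0 : P.projectionOnto _ hc (v : V) = v := Submodule.projectionOnto_apply_left hc v
    simp [h0]
  · intro v hv
    have h0 : P.projectionOnto _ hc v = 0 :=
      (Submodule.projectionOnto_apply_eq_zero_iff hc).2 hv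
    simp [h0]

end Cfsg.Agent.Lib.Helper25.Sd
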