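import Cfsg.Agent.Lib.Helper25.Sd.Defs

/-! Ladder SD (S5961), rung INVP. -/

set_option autoImplicit false

namespace Cfsg.Agent.Lib.Helper25.Sd

open Module Polynomial Cfsg.Agent.Lib.Helper25.Elu Cfsg.Agent.Lib.Helper99

variable {F : Type*} [Field F] {V : Type*} [AddCommGroup V] [Module F V] [FiniteDimensional F V]
  {B : LinearMap.BilinForm F V} {T : End F V} {r : ℕ}

omit [FiniteDimensional F V] in
theorem apply_pow_pred (h : Ctx B T r) (hr : 0 < r) (v : V) : T ((T ^ (r - 1)) v) = v := by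
  have h1 : T * T ^ (r - 1) = 1 := by
    rw [← pow_succ', Nat.sub_add_cancel hr, h.pow]
  exact congrArg (fun f : End F V => f v) h1

omit [FiniteDimensional F V] in
theorem pow_pred_apply (h : Ctx B T r) (hr : 0 < r) (v : V) : (T ^ (r - 1)) (T v) = v := by
  have h1 : T ^ (r - 1) * T = 1 := by
    rw [← pow_succ, Nat.sub_add_cancel hr, h.pow]
  exact congrArg (fun f : End F V => f v) h1

omit [FiniteDimensional F V] in
/-- `B u (T v) = B (T^(r-1) u) v`. -/
theorem adj_one (h : Ctx B T r) (hr : 0 < r) (u v : V) : B u (T v) = B ((T ^ (r - 1)) u) v := by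
  conv_lhs => rw [← apply_pow_pred h hr u]
  exact h.iso _ _

omit [FiniteDimensional F V] in
/-- `m ∈ W^⊥`, `n ∈ W`: `B n (T m) = B (T (T^(r-1) n)) (T m) = B (T^(r-1) n) m = 0`. -/
theorem isInv_orthogonal (h : Ctx B T r) (hr : 0 < r) {W : Submodule F V} (hW : IsInv T W) :
    IsInv T (B.orthogonal W) := by
  intro m hm
  rw [LinearMap.BilinForm.mem_orthogonal_iff] at hm ⊢
  intro n hn
  show B n (T m) = 0
  rw [adj_one h hr]
  exact hm _ (hW.pow (r - 1) n hn)

end Cfsg.Agent.Lib.Helper25.Sd
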