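import Cfsg.Agent.Lib.Helper25.Sd.Defs
import Cfsg.Agent.Lib.Helper25.Sd.INVP

/-! Ladder SD (S5961), rung GLUECTX. -/

set_option autoImplicit false

namespace Cfsg.Agent.Lib.Helper25.Sd

open Module Polynomial Cfsg.Agent.Lib.Helper25.Elu Cfsg.Agent.Lib.Helper99

variable {F : Type*} [Field F] {V : Type*} [AddCommGroup V] [Module F V] [FiniteDimensional F V]
  {B : LinearMap.BilinForm F V} {T : End F V} {r : ℕ}

theorem gluectx_isCompl (hB : B.IsAlt) {P : Submodule F V} (hP : NondegOn B P) :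
    IsCompl P (B.orthogonal P) := by
  apply LinearMap.BilinForm.isCompl_orthogonal_of_restrict_nondegenerate hB.isRefl
  constructor
  · intro x hx
    by_contra hne
    obtain ⟨y, hy, hxy⟩ := hP x.1 x.2 (fun h => hne (Subtype.ext h))
    exact hxy (hx ⟨y, hy⟩)
  · intro y hy
    by_contra hne
    obtain ⟨x, hx, hyx⟩ := hP y.1 y.2 (fun h => hne (Subtype.ext h))
    apply hyx
    rw [skew_of_alt hB]
    have : B x y.1 = 0 := hy ⟨x, hx⟩
    rw [this, neg_zero]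

theorem gluectx_decomp (hB : B.IsAlt) {P : Submodule F V} (hP : NondegOn B P) (v : V) :
    ∃ v₁ ∈ P, ∃ v₂ ∈ B.orthogonal P, v = v₁ + v₂ := by
  have h := (gluectx_isCompl hB hP).sup_eq_top
  have hv : v ∈ P ⊔ B.orthogonal P := by rw [h]; exact Submodule.mem_top
  obtain ⟨a, ha, b, hb, e⟩ := Submodule.mem_sup.1 hv
  exact ⟨a, ha, b, hb, e.symm⟩

/-- every `v = v₁ + v₂`, `v₁ ∈ P`, `v₂ ∈ P^⊥`; `T` maps `P^⊥` to itself (INVP; `P ≤ Fx T` is invariant);
`T'^s v = S^s v₁ + T^s v₂`. -/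
theorem glue_ctx (h : Ctx B T r) (hr : 0 < r) {P : Submodule F V} (hP : NondegOn B P)
    (hPT : P ≤ Fx T) (S : P →ₗ[F] P) (hS : ∀ u v : P, B (S u : V) (S v : V) = B (u : V) (v : V))
    (hSr : S ^ r = 1) (T' : End F V) (h1 : ∀ v : P, T' (v : V) = (S v : V))
    (h2 : ∀ v ∈ B.orthogonal P, T' v = T v) : Ctx B T' r := by
  have hinvP : IsInv T P := by
    intro v hv
    rw [mem_Fx.mp (hPT hv)]
    exact hv
  have hinv : IsInv T (B.orthogonal P) := isInv_orthogonal h hr hinvP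
  have h0 : ∀ x ∈ P, ∀ y ∈ B.orthogonal P, B x y = 0 := fun x hx y hy => hy x hx
  have h0' : ∀ x ∈ P, ∀ y ∈ B.orthogonal P, B y x = 0 := fun x hx y hy => by
    rw [skew_of_alt h.alt, h0 x hx y hy, neg_zero]
  refine ⟨h.alt, ?_, ?_⟩
  · intro u v
    obtain ⟨u₁, hu₁, u₂, hu₂, rfl⟩ := gluectx_decomp h.alt hP u
    obtain ⟨v₁, hv₁, v₂, hv₂, rfl⟩ := gluectx_decomp h.alt hP v
    have eu : T' u₁ = (S ⟨u₁, hu₁⟩ : V) := h1 ⟨u₁, hu₁⟩
    have ev : T' v₁ = (S ⟨v₁, hv₁⟩ : V) := h1 ⟨v₁, hv₁⟩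
    simp only [map_add, LinearMap.add_apply, eu, ev, h2 u₂ hu₂, h2 v₂ hv₂]
    rw [hS, h0 _ (S ⟨u₁, hu₁⟩).2 _ (hinv v₂ hv₂), h0' _ (S ⟨v₁, hv₁⟩).2 _ (hinv u₂ hu₂), h.iso,
      h0 _ hu₁ _ hv₂, h0' _ hv₁ _ hu₂]
  · have p1 : ∀ (s : ℕ) (v : P), (T' ^ s) (v : V) = ((S ^ s) v : V) := by
      intro s
      induction s with
      | zero => intro v; simp
      | succ s ih =>
        intro v
        rw [pow_succ, pow_succ, Module.End.mul_apply, Module.End.mul_apply, h1, ih]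
    have p2 : ∀ (s : ℕ), ∀ v ∈ B.orthogonal P, (T' ^ s) v = (T ^ s) v := by
      intro s
      induction s with
      | zero => intro v _; simp
      | succ s ih =>
        intro v hv
        rw [pow_succ, pow_succ, Module.End.mul_apply, Module.End.mul_apply, h2 v hv,
          ih _ (hinv v hv)]
    ext v
    obtain ⟨v₁, hv₁, v₂, hv₂, rfl⟩ := gluectx_decomp h.alt hP v
    rw [map_add, p2 r v₂ hv₂, h.pow]
    have := p1 r ⟨v₁, hv₁⟩
    rw [hSr] at this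
    simp only [Module.End.one_apply] at this ⊢
    rw [this]

end Cfsg.Agent.Lib.Helper25.Sd
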