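import Cfsg.Agent.Lib.Helper25.Sd.Defs
import Cfsg.Agent.Lib.Helper25.Sd.INVP
import Cfsg.Agent.Lib.Helper25.Sd.GLUECTX

/-! Ladder SD (S5961), rung GLUEFIX. -/

set_option autoImplicit false

namespace Cfsg.Agent.Lib.Helper25.Sd

open Module Polynomial Cfsg.Agent.Lib.Helper25.Elu Cfsg.Agent.Lib.Helper99

variable {F : Type*} [Field F] {V : Type*} [AddCommGroup V] [Module F V] [FiniteDimensional F V]
  {B : LinearMap.BilinForm F V} {T : End F V} {r : ℕ}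

/-- `T' (v₁ + v₂) = v₁ + v₂ ↔ S v₁ = v₁ ∧ T v₂ = v₂ ↔ v₁ = 0 ∧ v₂ ∈ Fx T`: `Fx T' = Fx T ⊓ P^⊥`; modular law:
`Fx T = P ⊕ (Fx T ⊓ P^⊥)`. -/
theorem glue_fix (h : Ctx B T r) (hr : 0 < r) {P : Submodule F V} (hP : NondegOn B P)
    (hPT : P ≤ Fx T) (S : P →ₗ[F] P) (hSfix : ∀ u : P, S u = u → u = 0) (T' : End F V)
    (h1 : ∀ v : P, T' (v : V) = (S v : V)) (h2 : ∀ v ∈ B.orthogonal P, T' v = T v) :
    finrank F (Fx T') + finrank F P = finrank F (Fx T) := by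
  have hc : IsCompl P (B.orthogonal P) := gluectx_isCompl h.alt hP
  have hinvP : IsInv T P := by
    intro v hv
    rw [mem_Fx.mp (hPT hv)]
    exact hv
  have hinvO : IsInv T (B.orthogonal P) := isInv_orthogonal h hr hinvP
  have hFx : Fx T' = Fx T ⊓ B.orthogonal P := by
    apply le_antisymm
    · intro v hv
      rw [mem_Fx] at hv
      obtain ⟨v₁, hv₁, v₂, hv₂, rfl⟩ := gluectx_decomp h.alt hP v
      rw [map_add, h1 ⟨v₁, hv₁⟩, h2 v₂ hv₂] at hv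
      have h3 : ((S ⟨v₁, hv₁⟩ : P) : V) - v₁ = v₂ - T v₂ := by
        have : ((S ⟨v₁, hv₁⟩ : P) : V) - v₁ - (v₂ - T v₂) = 0 := by
          rw [← sub_eq_zero] at hv
          rw [← hv]; abel
        exact sub_eq_zero.mp this
      have h4 : ((S ⟨v₁, hv₁⟩ : P) : V) - v₁ ∈ P := P.sub_mem (S ⟨v₁, hv₁⟩).2 hv₁
      have h5 : ((S ⟨v₁, hv₁⟩ : P) : V) - v₁ ∈ B.orthogonal P := by
        rw [h3]
        exact (B.orthogonal P).sub_mem hv₂ (hinvO v₂ hv₂)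
      have h6 : ((S ⟨v₁, hv₁⟩ : P) : V) - v₁ = 0 := by
        have := hc.disjoint.le_bot (Submodule.mem_inf.mpr ⟨h4, h5⟩)
        exact (Submodule.mem_bot F).mp this
      have h7 : S ⟨v₁, hv₁⟩ = ⟨v₁, hv₁⟩ := Subtype.ext (sub_eq_zero.mp h6)
      have h8 : v₁ = 0 := congrArg Subtype.val (hSfix _ h7)
      have h9 : T v₂ = v₂ := by
        rw [h6] at h3
        exact (sub_eq_zero.mp h3.symm).symm
      rw [h8, zero_add]
      exact Submodule.mem_inf.mpr ⟨mem_Fx.mpr h9, hv₂⟩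
    · intro v hv
      obtain ⟨hv1, hv2⟩ := Submodule.mem_inf.mp hv
      rw [mem_Fx, h2 v hv2]
      exact mem_Fx.mp hv1
  have hsup : P ⊔ (Fx T ⊓ B.orthogonal P) = Fx T := by
    rw [inf_comm, ← sup_inf_assoc_of_le _ hPT, hc.sup_eq_top, top_inf_eq]
  have hinf : P ⊓ (Fx T ⊓ B.orthogonal P) = ⊥ := by
    rw [eq_bot_iff]
    intro v hv
    obtain ⟨hv1, hv2⟩ := Submodule.mem_inf.mp hv
    exact hc.disjoint.le_bot (Submodule.mem_inf.mpr ⟨hv1, (Submodule.mem_inf.mp hv2).2⟩)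
  have hcount := Submodule.finrank_sup_add_finrank_inf_eq P (Fx T ⊓ B.orthogonal P)
  rw [hsup, hinf, finrank_bot, add_zero] at hcount
  rw [hFx, hcount, add_comm]

end Cfsg.Agent.Lib.Helper25.Sd
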