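import Cfsg.Agent.Lib.Helper25.Sd.Defs
import Cfsg.Agent.Lib.Helper25.Sd.EVEN
import Cfsg.Agent.Lib.Helper99.SympIndex

/-! Ladder SD (S5961), rung ISOM. -/

set_option autoImplicit false

namespace Cfsg.Agent.Lib.Helper25.Sd

open Module Polynomial Cfsg.Agent.Lib.Helper25.Elu Cfsg.Agent.Lib.Helper99

variable {F : Type*} [Field F] {V : Type*} [AddCommGroup V] [Module F V] [FiniteDimensional F V]
  {B : LinearMap.BilinForm F V} {T : End F V} {r : ℕ}

/-- `Cfsg.Agent.Lib.Helper99.exists_symplectic_coords` (Helper99/SympIndex) for `B.restrict P` on `↥P` and for `P'`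
(`dim` even by EVEN): `φ = Φ' ∘ Φ⁻¹`. -/
theorem exists_isom (hB : B.IsAlt) {P P' : Submodule F V} (hP : NondegOn B P) (hP' : NondegOn B P')
    (hdim : finrank F P = finrank F P') :
    ∃ φ : P ≃ₗ[F] P', ∀ u v : P, B (φ u : V) (φ v : V) = B (u : V) (v : V) := by
  obtain ⟨m, hm⟩ := even_finrank hB hP
  have hm2 : finrank F P = 2 * m := by rw [hm]; ring
  have halt : ∀ Q : Submodule F V, (B.restrict Q).IsAlt := fun Q x => hB (x : V)
  have hnd : ∀ Q : Submodule F V, NondegOn B Q → NondegOn (B.restrict Q) ⊤ := by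
    intro Q hQ x _ hx
    obtain ⟨y, hy, hxy⟩ := hQ (x : V) x.2 (fun h0 => hx (Subtype.ext h0))
    exact ⟨⟨y, hy⟩, trivial, hxy⟩
  obtain ⟨Φ, hΦ⟩ := exists_symplectic_coords (halt P) (hnd P hP) hm2
  obtain ⟨Φ', hΦ'⟩ := exists_symplectic_coords (halt P') (hnd P' hP') (hdim ▸ hm2)
  refine ⟨Φ.symm.trans Φ', ?_⟩
  intro u v
  have h1 := hΦ' (Φ.symm u) (Φ.symm v)
  have h2 := hΦ (Φ.symm u) (Φ.symm v)
  rw [LinearEquiv.apply_symm_apply, LinearEquiv.apply_symm_apply] at h2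
  have h3 : B ((Φ' (Φ.symm u) : P') : V) ((Φ' (Φ.symm v) : P') : V) = B (u : V) (v : V) := by
    have e1 : (B.restrict P') (Φ' (Φ.symm u)) (Φ' (Φ.symm v)) =
        B ((Φ' (Φ.symm u) : P') : V) ((Φ' (Φ.symm v) : P') : V) := rfl
    have e2 : (B.restrict P) u v = B (u : V) (v : V) := rfl
    rw [← e1, ← e2, h1, h2]
  exact h3

end Cfsg.Agent.Lib.Helper25.Sd
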