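import Cfsg.Agent.Lib.Helper25.Sd.Defs

/-! Ladder SD (S5961), rung PERP. -/

set_option autoImplicit false

namespace Cfsg.Agent.Lib.Helper25.Sd

open Module Polynomial Cfsg.Agent.Lib.Helper25.Elu Cfsg.Agent.Lib.Helper99

variable {F : Type*} [Field F] {V : Type*} [AddCommGroup V] [Module F V] [FiniteDimensional F V]
  {B : LinearMap.BilinForm F V} {T : End F V} {r : ℕ}

/-- `NondegOn` gives nondegeneracy of the restricted form. -/
theorem perp_restrict_nondeg (hB : B.IsAlt) {W : Submodule F V} (hW : NondegOn B W) :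
    (B.restrict W).Nondegenerate := by
  have hl : (B.restrict W).SeparatingLeft := by
    intro x hx
    by_contra hne
    obtain ⟨y, hy, hxy⟩ := hW x.1 x.2 (fun h => hne (Subtype.ext h))
    exact hxy (hx ⟨y, hy⟩)
  refine ⟨hl, ?_⟩
  intro x hx
  apply hl
  intro y
  have := hx y
  show B x.1 y.1 = 0
  rw [skew_of_alt hB]
  have h2 : B y.1 x.1 = 0 := this
  rw [h2, neg_zero]

/-- `V = W ⊕ W^⊥` (`LinearMap.BilinForm.isCompl_orthogonal_of_restrict_nondegenerate`), modular law inside `U`;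
for `v ∈ U ⊓ W^⊥`, `B v y ≠ 0`, `y = w + y'`: `B v y' ≠ 0`. -/
theorem perp_props (hB : B.IsAlt) {U W : Submodule F V} (hU : NondegOn B U) (hW : NondegOn B W)
    (hWU : W ≤ U) :
    W ⊔ (U ⊓ B.orthogonal W) = U ∧ Disjoint W (U ⊓ B.orthogonal W) ∧
      NondegOn B (U ⊓ B.orthogonal W) ∧
      finrank F W + finrank F ↥(U ⊓ B.orthogonal W) = finrank F U := by
  have hc : IsCompl W (B.orthogonal W) :=
    LinearMap.BilinForm.isCompl_orthogonal_of_restrict_nondegenerate hB.isRefl
      (perp_restrict_nondeg hB hW)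
  have h1 : W ⊔ (U ⊓ B.orthogonal W) = U := by
    apply le_antisymm (sup_le hWU inf_le_left)
    intro u hu
    have hu' : u ∈ W ⊔ B.orthogonal W := by rw [hc.sup_eq_top]; trivial
    obtain ⟨w, hw, y, hy, rfl⟩ := Submodule.mem_sup.1 hu'
    refine Submodule.mem_sup.2 ⟨w, hw, y, ⟨?_, hy⟩, rfl⟩
    have := U.sub_mem hu (hWU hw)
    simpa using this
  have h2 : Disjoint W (U ⊓ B.orthogonal W) := hc.disjoint.mono_right inf_le_right
  refine ⟨h1, h2, ?_, ?_⟩
  · intro v hv hv0
    obtain ⟨y, hy, hvy⟩ := hU v hv.1 hv0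
    rw [← h1] at hy
    obtain ⟨w, hw, y', hy', rfl⟩ := Submodule.mem_sup.1 hy
    refine ⟨y', hy', ?_⟩
    have h3 : B v w = 0 := by
      rw [skew_of_alt hB]
      have := (LinearMap.BilinForm.mem_orthogonal_iff.1 hv.2) w hw
      exact neg_eq_zero.2 this
    rwa [map_add, h3, zero_add] at hvy
  · have := Submodule.finrank_sup_add_finrank_inf_eq W (U ⊓ B.orthogonal W)
    rw [h1, h2.eq_bot, finrank_bot] at this
    omega

end Cfsg.Agent.Lib.Helper25.Sd
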