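import Cfsg.Agent.Lib.Helper25.Sd.Defs
import Cfsg.Agent.Lib.Helper25.Sd.PERP
import Cfsg.Agent.Lib.Helper25.Sd.EVEN

/-! Ladder SD (S5961), rung SUBND. -/

set_option autoImplicit false

namespace Cfsg.Agent.Lib.Helper25.Sd

open Module Polynomial Cfsg.Agent.Lib.Helper25.Elu Cfsg.Agent.Lib.Helper99

variable {F : Type*} [Field F] {V : Type*} [AddCommGroup V] [Module F V] [FiniteDimensional F V]
  {B : LinearMap.BilinForm F V} {T : End F V} {r : ℕ}

/-- downward induction: if `2 m < dim C` remove a hyperbolic plane (`u ≠ 0`, `B u v ≠ 0` in `C`; `P = span {u, v}` is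
nondegenerate of dimension 2; PERP: `C ⊓ P^⊥` nondegenerate of dimension `dim C - 2`); `dim C` is even (EVEN). -/
theorem exists_nondeg_sub (hB : B.IsAlt) {C : Submodule F V} (hC : NondegOn B C) {m : ℕ}
    (hm : 2 * m ≤ finrank F C) :
    ∃ P : Submodule F V, P ≤ C ∧ NondegOn B P ∧ finrank F P = 2 * m := by
  induction hn : finrank F C using Nat.strong_induction_on generalizing C with
  | _ n ih =>
    by_cases heq : finrank F C = 2 * m
    · exact ⟨C, le_rfl, hC, heq⟩
    · have hlt : 2 * m < finrank F C := lt_of_le_of_ne hm (Ne.symm heq)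
      have hpos : 0 < finrank F C := by omega
      obtain ⟨⟨u, hu⟩, hu0⟩ := Module.finrank_pos_iff_exists_ne_zero.1 hpos
      have hu0' : u ≠ 0 := fun h => hu0 (Subtype.ext h)
      obtain ⟨w, hw, huw⟩ := hC u hu hu0'
      have hw0 : w ≠ 0 := by
        rintro rfl
        exact huw (map_zero _)
      have hnd := perpPair_nondeg hB hu hw huw hC
      have hlt2 := perpPair_finrank_lt (W := C) hw huw
      have hsup := perpPair_sup hB hu hw huw (U₁ := perpPair B C u w) (U₂ := ⊥) (sup_bot_eq _)
      have h1 : finrank F C ≤ finrank F (perpPair B C u w) + 1 + 1 := by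
        calc finrank F C
            = finrank F ↥((perpPair B C u w ⊔ Submodule.span F {u}) ⊔
                (⊥ ⊔ Submodule.span F {w})) := by rw [hsup]
          _ ≤ finrank F ↥(perpPair B C u w ⊔ Submodule.span F {u}) +
                finrank F ↥((⊥ : Submodule F V) ⊔ Submodule.span F {w}) :=
              Submodule.finrank_add_le_finrank_add_finrank _ _
          _ ≤ (finrank F (perpPair B C u w) + finrank F (Submodule.span F {u})) +
                finrank F (Submodule.span F {w}) := by
              rw [bot_sup_eq]
              exact Nat.add_le_add_right (Submodule.finrank_add_le_finrank_add_finrank _ _) _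
          _ = finrank F (perpPair B C u w) + 1 + 1 := by
              rw [finrank_span_singleton hu0', finrank_span_singleton hw0]
      obtain ⟨k, hk⟩ := even_finrank hB hC
      obtain ⟨k', hk'⟩ := even_finrank hB hnd
      obtain ⟨P, hP, hPn, hPf⟩ := ih (finrank F (perpPair B C u w)) (by omega) hnd (by omega) rfl
      exact ⟨P, hP.trans (perpPair_le B C u w), hPn, hPf⟩

end Cfsg.Agent.Lib.Helper25.Sd
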