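import Cfsg.Agent.Lib.Helper25.Sd.Defs
import Cfsg.Agent.Lib.Helper25.Sd.FIXND
import Cfsg.Agent.Lib.Helper25.Sd.SUBND
import Cfsg.Agent.Lib.Helper25.Sd.ISOM
import Cfsg.Agent.Lib.Helper25.Sd.GLUE
import Cfsg.Agent.Lib.Helper25.Sd.GLUECTX
import Cfsg.Agent.Lib.Helper25.Sd.GLUEFIX
import Cfsg.Agent.Lib.Helper25.Sd.EVEN

/-! Ladder SD (S5961), rung STEP. -/

set_option autoImplicit false

namespace Cfsg.Agent.Lib.Helper25.Sd

open Module Polynomial Cfsg.Agent.Lib.Helper25.Elu Cfsg.Agent.Lib.Helper99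

variable {F : Type*} [Field F] {V : Type*} [AddCommGroup V] [Module F V] [FiniteDimensional F V]
  {B : LinearMap.BilinForm F V} {T : End F V} {r : ℕ}

/-- `C = Fx T` is nondegenerate (FIXND with `W = ⊤`); SUBND: `P' ≤ C` nondegenerate with `dim P' = dim P` (even by EVEN);
ISOM `φ : P ≃ P'`; `S = φ ∘ (T₀.restrict) ∘ φ⁻¹`; GLUE, GLUECTX, GLUEFIX. -/
theorem exists_step (hnd : NondegOn B ⊤) (hrF : (r : F) ≠ 0) (hr : 0 < r) {T₀ : End F V}
    (h₀ : Ctx B T₀ r) (h : Ctx B T r) {P : Submodule F V} (hP : Good B T₀ P)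
    (hPfix : P ⊓ Fx T₀ = ⊥) (hle : finrank F P ≤ finrank F (Fx T)) :
    ∃ T' : End F V, Ctx B T' r ∧ finrank F (Fx T') + finrank F P = finrank F (Fx T) := by
  have hC : NondegOn B (Fx T) := by
    have := nondegOn_inf_fix h hrF (W := ⊤) ⟨hnd, isInv_top T⟩
    rwa [top_inf_eq] at this
  obtain ⟨m, hm⟩ := even_finrank h.alt hP.nd
  have hm2 : finrank F P = 2 * m := by omega
  obtain ⟨P', hP'C, hP'nd, hP'dim⟩ := exists_nondeg_sub h.alt hC (m := m) (by omega)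
  obtain ⟨φ, hφ⟩ := exists_isom h.alt hP.nd hP'nd (by rw [hm2, hP'dim])
  have hinv : ∀ x ∈ P, T₀ x ∈ P := hP.inv
  obtain ⟨R, hR⟩ : ∃ R : P →ₗ[F] P, ∀ x : P, (R x : V) = T₀ x := ⟨T₀.restrict hinv, fun x => rfl⟩
  obtain ⟨S, hS⟩ : ∃ S : P' →ₗ[F] P', ∀ x : P', S x = φ (R (φ.symm x)) :=
    ⟨φ.toLinearMap ∘ₗ R ∘ₗ φ.symm.toLinearMap, fun x => rfl⟩
  have hRpow : ∀ s : ℕ, ∀ x : P, ((R ^ s) x : V) = (T₀ ^ s) x := by
    intro s
    induction s with
    | zero => intro x; rfl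
    | succ s ih =>
      intro x
      rw [pow_succ', Module.End.mul_apply, hR, ih, pow_succ', Module.End.mul_apply]
  have hSpow : ∀ s : ℕ, ∀ x : P', (S ^ s) x = φ ((R ^ s) (φ.symm x)) := by
    intro s
    induction s with
    | zero => intro x; simp
    | succ s ih =>
      intro x
      rw [pow_succ', Module.End.mul_apply, hS, ih, LinearEquiv.symm_apply_apply, pow_succ',
        Module.End.mul_apply]
  have hSiso : ∀ u v : P', B (S u : V) (S v : V) = B (u : V) (v : V) := by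
    intro u v
    rw [hS, hS, hφ, hR, hR, h₀.iso, ← hφ, LinearEquiv.apply_symm_apply,
      LinearEquiv.apply_symm_apply]
  have hSr : S ^ r = 1 := by
    ext x
    rw [hSpow]
    have h1 : (R ^ r) (φ.symm x) = φ.symm x := by
      apply Subtype.ext
      rw [hRpow, h₀.pow]
      rfl
    rw [h1, LinearEquiv.apply_symm_apply]
    rfl
  have hSfix : ∀ u : P', S u = u → u = 0 := by
    intro u hu
    rw [hS] at hu
    have h1 : R (φ.symm u) = φ.symm u := by
      apply φ.injective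
      rw [hu, LinearEquiv.apply_symm_apply]
    have h2 : ((φ.symm u : P) : V) ∈ P ⊓ Fx T₀ := by
      refine ⟨(φ.symm u).2, mem_Fx.2 ?_⟩
      rw [← hR, h1]
    rw [hPfix, Submodule.mem_bot] at h2
    have h3 : φ.symm u = 0 := Subtype.ext h2
    exact φ.symm.map_eq_zero_iff.1 h3
  obtain ⟨T', h1, h2⟩ := exists_glue h.alt hP'nd S T
  refine ⟨T', glue_ctx h hr hP'nd hP'C S hSiso hSr T' h1 h2, ?_⟩
  have := glue_fix h hr hP'nd hP'C S hSfix T' h1 h2
  rw [hP'dim] at this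
  rw [hm2]
  exact this

end Cfsg.Agent.Lib.Helper25.Sd
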