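import Cfsg.Agent.Lib.Helper25.Sd.Defs
import Cfsg.Agent.Lib.Helper25.Sd.STEP

/-! Ladder SD (S5961), rung EXK. -/

set_option autoImplicit false

namespace Cfsg.Agent.Lib.Helper25.Sd

open Module Polynomial Cfsg.Agent.Lib.Helper25.Elu Cfsg.Agent.Lib.Helper99

variable {F : Type*} [Field F] {V : Type*} [AddCommGroup V] [Module F V] [FiniteDimensional F V]
  {B : LinearMap.BilinForm F V} {T : End F V} {r : ℕ}

/-- induction on `k` from `T = 1` using STEP. -/
theorem exists_elt (hnd : NondegOn B ⊤) (hrF : (r : F) ≠ 0) (hr : 0 < r) {T₀ : End F V}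
    (h₀ : Ctx B T₀ r) {P : Submodule F V} (hP : Good B T₀ P) (hPfix : P ⊓ Fx T₀ = ⊥) (k : ℕ)
    (hk : finrank F P * k ≤ finrank F V) :
    ∃ T : End F V, Ctx B T r ∧ finrank F (Fx T) + finrank F P * k = finrank F V := by
  induction k with
  | zero =>
    refine ⟨1, ⟨h₀.alt, fun u v => rfl, one_pow r⟩, ?_⟩
    have : Fx (1 : End F V) = ⊤ := by
      rw [Fx, sub_self, LinearMap.ker_zero]
    rw [this, finrank_top, mul_zero, add_zero]
  | succ k ih =>
    have hk' : finrank F P * k ≤ finrank F V := by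
      rw [Nat.mul_succ] at hk
      omega
    obtain ⟨T, hT, hfin⟩ := ih hk'
    have hle : finrank F P ≤ finrank F (Fx T) := by
      rw [Nat.mul_succ] at hk
      omega
    obtain ⟨T', hT', hfin'⟩ := exists_step hnd hrF hr h₀ hT hP hPfix hle
    refine ⟨T', hT', ?_⟩
    rw [Nat.mul_succ]
    omega

end Cfsg.Agent.Lib.Helper25.Sd
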