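import Cfsg.Agent.Lib.Helper25.Sd.Defs
import Cfsg.Agent.Lib.Helper25.Dec.FREE
import Cfsg.Agent.Lib.Helper99.SympForm

/-! Ladder SD (S5961), rung FREES. -/

set_option autoImplicit false

namespace Cfsg.Agent.Lib.Helper25.Sd

open Module Polynomial Cfsg.Agent.Lib.Helper25.Elu Cfsg.Agent.Lib.Helper99

variable {F : Type*} [Field F] {d : ℕ}

theorem frees_comp {ι : Type} {B : LinearMap.BilinForm F (ι → F)} {a t : ℕ}
    {D : Fin t → Submodule F (ι → F)} (hD : SDec B a D) (π : Equiv.Perm (Fin t)) :
    SDec B a (D ∘ π) where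
  dec :=
    { two_le := hD.dec.two_le
      pos := hD.dec.pos
      finrank_eq := fun i => hD.dec.finrank_eq (π i)
      indep := hD.dec.indep.comp π.injective
      iSup_eq_top := by
        rw [← hD.dec.iSup_eq_top]
        exact π.surjective.iSup_comp D }
  nd := fun j => hD.nd (π j)
  orth := fun j j' h => hD.orth (π j) (π j') (fun h' => h (π.injective h'))

theorem frees_injective {ι : Type} {a t : ℕ} {D : Fin t → Submodule F (ι → F)}
    (hD : Cfsg.Geo.IsMDecomposition a D) : Function.Injective D := by
  apply hD.indep.injective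
  intro i h
  have := hD.finrank_eq i
  rw [h, finrank_bot] at this
  have := hD.pos
  omega

/-- as Dec/FREE `factorial_dvd_card` (use `Cfsg.Agent.Lib.Helper25.Dec.card_dvd_of_free`; `D` is injective since independent with
nonzero members). -/
theorem factorial_dvd_card_sdec [Finite F] {a t : ℕ} :
    t.factorial ∣
      Nat.card {D : Fin t → Submodule F (Fin d ⊕ Fin d → F) // SDec (sympB d) a D} := by
  classical
  let _ : MulAction (Equiv.Perm (Fin t))
      {D : Fin t → Submodule F (Fin d ⊕ Fin d → F) // SDec (sympB d) a D} :=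
    { smul := fun π D => ⟨D.1 ∘ (π⁻¹ : Equiv.Perm (Fin t)), frees_comp D.2 _⟩
      one_smul := fun D => by
        apply Subtype.ext
        funext i
        rfl
      mul_smul := fun π ρ D => by
        apply Subtype.ext
        funext i
        show D.1 ((π * ρ)⁻¹ i) = D.1 (ρ⁻¹ (π⁻¹ i))
        rw [mul_inv_rev, Equiv.Perm.mul_apply] }
  have : Finite (Submodule F (Fin d ⊕ Fin d → F)) := by
    have : Finite (Set (Fin d ⊕ Fin d → F)) := inferInstance
    exact Finite.of_injective (fun W : Submodule F (Fin d ⊕ Fin d → F) => (W : Set (Fin d ⊕ Fin d → F)))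
      SetLike.coe_injective
  have h := Cfsg.Agent.Lib.Helper25.Dec.card_dvd_of_free (G := Equiv.Perm (Fin t))
    (X := {D : Fin t → Submodule F (Fin d ⊕ Fin d → F) // SDec (sympB d) a D}) (by
      intro π D h
      have h1 : ∀ i, D.1 (π⁻¹ i) = D.1 i := fun i => congrFun (congrArg Subtype.val h) i
      have h2 : π⁻¹ = 1 := by
        ext i
        rw [frees_injective D.2.dec (h1 i), Equiv.Perm.one_apply]
      exact inv_eq_one.1 h2)
  rwa [Nat.card_eq_fintype_card, Fintype.card_perm, Fintype.card_fin] at h

end Cfsg.Agent.Lib.Helper25.Sd
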