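import Cfsg.Agent.Lib.Helper25.Sd.Defs

/-! Ladder SD (S5961), rung FROB. -/

set_option autoImplicit false

namespace Cfsg.Agent.Lib.Helper25.Sd

open Module Polynomial Cfsg.Agent.Lib.Helper25.Elu Cfsg.Agent.Lib.Helper99

variable {F : Type*} [Field F] {V : Type*} [AddCommGroup V] [Module F V]

/-- `FiniteField.expand_card : expand q f = f ^ q`, `Polynomial.expand_aeval`; induction on `k`. -/
theorem aeval_pow_card [Fintype F] (T : End F V) (f : F[X]) (k : ℕ) :
    aeval (T ^ (Fintype.card F ^ k)) f = (aeval T f) ^ (Fintype.card F ^ k) := by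
  induction k with
  | zero => rw [pow_zero, pow_one, pow_one]
  | succ k ih =>
    rw [pow_succ, pow_mul, ← Polynomial.expand_aeval, FiniteField.expand_card, map_pow, ih, ← pow_mul]

end Cfsg.Agent.Lib.Helper25.Sd
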