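import Cfsg.Agent.Lib.Helper25.Sd.Defs
import Cfsg.Agent.Lib.Helper25.Dec.SIG
import Cfsg.Agent.Lib.Helper25.Dec.INJ

/-! Ladder SD: the lemmas of ladder DEC (SIG, ORBIT, SIGONE, SUMLE) for `ι → F`. -/

set_option autoImplicit false

namespace Cfsg.Agent.Lib.Helper25.Sd

open Module Cfsg.Agent.Lib.Helper25.Elu

variable {F : Type*} [Field F] {ι : Type} [Fintype ι]


theorem decomp_injective {a t : ℕ} {D : Fin t → Submodule F (ι → F)}
    (hD : Cfsg.Geo.IsMDecomposition a D) : Function.Injective D := by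
  apply hD.indep.injective
  intro i h
  have := hD.finrank_eq i
  rw [h, finrank_bot] at this
  have := hD.pos
  omega

/-- induction on `s` (cf. `Cfsg.Agent.Lib.Helper48.map_pow_decomp`). -/
theorem map_pow_eq {t : ℕ} {D : Fin t → Submodule F (ι → F)} (T : End F (ι → F))
    (σ : Equiv.Perm (Fin t)) (hσ : ∀ j, (D j).map T = D (σ j)) (s : ℕ) (j : Fin t) :
    (D j).map (T ^ s) = D ((σ ^ s) j) := by
  induction s with
  | zero =>
    rw [pow_zero, pow_zero, Equiv.Perm.one_apply]
    exact Submodule.map_id _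
  | succ s ih =>
    rw [pow_succ', pow_succ', Module.End.mul_eq_comp, Submodule.map_comp, ih, hσ,
      Equiv.Perm.mul_apply]

theorem sigma_pow_eq_one {a t : ℕ} {D : Fin t → Submodule F (ι → F)}
    (hD : Cfsg.Geo.IsMDecomposition a D) (T : End F (ι → F))
    (σ : Equiv.Perm (Fin t)) (hσ : ∀ j, (D j).map T = D (σ j)) {r : ℕ} (hT : T ^ r = 1) :
    σ ^ r = 1 := by
  ext j
  have h := map_pow_eq T σ hσ r j
  rw [hT] at h
  have h2 : (D j).map (1 : End F (ι → F)) = D j := Submodule.map_id _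
  rw [h2] at h
  rw [← decomp_injective hD h, Equiv.Perm.one_apply]


/-- `W = ⨆_{s<r-1} D (σ^s j)` has dimension `a (r-1)` (distinct independent summands) and `W ⊓ ker (T - 1) = ⊥`:
with `π_i` the projections of the decomposition, `π_{σ i} (T v) = T (π_i v)`; if `T v = v ∈ W` then
`π_{σ^(r-1) j} v = 0`, hence `T (π_{σ^(r-2) j} v) = 0`, … all components vanish. -/
theorem orbit_bound {a t : ℕ} {D : Fin t → Submodule F (ι → F)}
    (hD : Cfsg.Geo.IsMDecomposition a D) (T : End F (ι → F))
    (σ : Equiv.Perm (Fin t)) (hσ : ∀ j, (D j).map T = D (σ j)) {r : ℕ} (hr : r.Prime)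
    (hT : T ^ r = 1) {j : Fin t} (hj : σ j ≠ j) :
    a * (r - 1) + finrank F (LinearMap.ker (T - 1)) ≤ Fintype.card ι := by
  have hσr := sigma_pow_eq_one hD T σ hσ hT
  have hinj : Function.Injective T := Cfsg.Agent.Lib.Helper25.Dec.injective_of_pow T hr.pos one_ne_zero (by rw [hT, one_smul])
  obtain ⟨W, hW⟩ : ∃ W : ℕ → Submodule F (ι → F),
      W = fun m => ⨆ s ∈ Finset.range m, D ((σ ^ s) j) := ⟨_, rfl⟩
  have hW0 : W 0 = ⊥ := by rw [hW]; simp
  have hWs : ∀ m, W (m + 1) = D ((σ ^ m) j) ⊔ W m := by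
    intro m
    rw [hW]
    simp only [Finset.range_add_one, Finset.iSup_insert]
  have hdis : ∀ m, m < r → Disjoint (D ((σ ^ m) j)) (W m) := by
    intro m hm
    have h1 : (σ ^ m) j ∉ {i | ∃ s, s < m ∧ i = (σ ^ s) j} := by
      rintro ⟨s, hs, h⟩
      have := Cfsg.Agent.Lib.Helper25.Dec.pow_apply_injOn σ hr hσr hj hm (by omega) h
      omega
    refine (hD.indep.disjoint_biSup h1).mono_right ?_
    rw [hW]
    refine iSup₂_le fun s hs => ?_
    exact le_iSup₂ (f := fun i (_ : i ∈ {i | ∃ s, s < m ∧ i = (σ ^ s) j}) => D i) ((σ ^ s) j)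
      ⟨s, Finset.mem_range.1 hs, rfl⟩
  have hfr : ∀ m, m ≤ r → finrank F (W m) = a * m := by
    intro m
    induction m with
    | zero => intro _; rw [hW0, finrank_bot, mul_zero]
    | succ m ih =>
      intro hm
      have h1 := Submodule.finrank_sup_add_finrank_inf_eq (D ((σ ^ m) j)) (W m)
      rw [(hdis m (by omega)).eq_bot, finrank_bot, hD.finrank_eq, ih (by omega), ← hWs] at h1
      rw [Nat.mul_succ]
      omega
  have hmap : ∀ m, ∀ x ∈ W m, T x ∈ W (m + 1) := by
    intro m
    induction m with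
    | zero =>
      intro x hx
      rw [hW0, Submodule.mem_bot] at hx
      rw [hx, map_zero]; exact Submodule.zero_mem _
    | succ m ih =>
      intro x hx
      rw [hWs m] at hx
      obtain ⟨y, hy, x', hx', rfl⟩ := Submodule.mem_sup.1 hx
      rw [map_add, hWs (m + 1)]
      refine Submodule.add_mem _ (Submodule.mem_sup_left ?_) (Submodule.mem_sup_right (ih x' hx'))
      rw [pow_succ', Equiv.Perm.mul_apply, ← hσ]
      exact Submodule.mem_map_of_mem hy
  have hfix : ∀ m, m < r → ∀ v ∈ W m, T v = v → v = 0 := by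
    intro m
    induction m with
    | zero =>
      intro _ v hv _
      rwa [hW0, Submodule.mem_bot] at hv
    | succ m ih =>
      intro hm v hv hTv
      have hv' := hv
      rw [hWs m] at hv'
      obtain ⟨y, hy, x, hx, rfl⟩ := Submodule.mem_sup.1 hv'
      have hTy1 : T y ∈ D ((σ ^ (m + 1)) j) := by
        rw [pow_succ', Equiv.Perm.mul_apply, ← hσ]
        exact Submodule.mem_map_of_mem hy
      have hTy2 : T y ∈ W (m + 1) := by
        have : T y = (y + x) - T x := by
          rw [← hTv, map_add]; abel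
        rw [this]
        exact Submodule.sub_mem _ hv (hmap m x hx)
      have hTy0 : T y = 0 := (Submodule.disjoint_def.1 (hdis (m + 1) hm)) _ hTy1 hTy2
      have hy0 : y = 0 := hinj (by rw [hTy0, map_zero])
      rw [hy0, zero_add] at hTv ⊢
      exact ih (by omega) x hx hTv
  have hr1 : r - 1 < r := by have := hr.pos; omega
  have hbot : W (r - 1) ⊓ LinearMap.ker (T - 1) = ⊥ := by
    rw [eq_bot_iff]
    rintro v ⟨h1, h2⟩
    rw [SetLike.mem_coe, LinearMap.mem_ker, LinearMap.sub_apply, Module.End.one_apply,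
      sub_eq_zero] at h2
    rw [Submodule.mem_bot]
    exact hfix _ hr1 v h1 h2
  have h1 := Submodule.finrank_sup_add_finrank_inf_eq (W (r - 1)) (LinearMap.ker (T - 1))
  rw [hbot, finrank_bot, hfr _ hr1.le] at h1
  have h2 := Submodule.finrank_le (W (r - 1) ⊔ LinearMap.ker (T - 1))
  rw [Module.finrank_fintype_fun_eq_card] at h2
  omega


/-- if `σ j ≠ j` then `D j → ker (T - 1)`, `v ↦ ∑_{s<r} T^s v` is injective: if the sum is `0` then
`v = -∑_{0<s<r} T^s v ∈ D j ⊓ ⨆_{i ≠ j} D i = ⊥` (SIG). So `a ≤ dim ker (T - 1)`. -/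
theorem sigma_eq_one {a t : ℕ} {D : Fin t → Submodule F (ι → F)}
    (hD : Cfsg.Geo.IsMDecomposition a D) (T : End F (ι → F))
    (σ : Equiv.Perm (Fin t)) (hσ : ∀ j, (D j).map T = D (σ j)) {r : ℕ} (hr : r.Prime)
    (hT : T ^ r = 1) (hC : finrank F (LinearMap.ker (T - 1)) < a) : σ = 1 := by
  by_contra hne
  obtain ⟨j, hj⟩ : ∃ j, σ j ≠ j := by
    by_contra hcon
    push Not at hcon
    exact hne (Equiv.ext hcon)
  have hσr := sigma_pow_eq_one hD T σ hσ hT
  obtain ⟨m, rfl⟩ : ∃ m, r = m + 1 := ⟨r - 1, by have := hr.pos; omega⟩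
  obtain ⟨N, hN⟩ : ∃ N : End F (ι → F), N = ∑ s ∈ Finset.range (m + 1), T ^ s := ⟨_, rfl⟩
  have h1 : (T - 1) * N = 0 := by rw [hN, mul_geom_sum, hT, sub_self]
  have hNC : ∀ v, N v ∈ LinearMap.ker (T - 1) := by
    intro v
    have := congrArg (fun f : End F (ι → F) => f v) h1
    simpa [Module.End.mul_apply] using this
  have hmem : ∀ s v, v ∈ D j → (T ^ s) v ∈ D ((σ ^ s) j) := by
    intro s v hv
    rw [← map_pow_eq T σ hσ s j]
    exact Submodule.mem_map_of_mem hv
  have hinj : ∀ v ∈ D j, N v = 0 → v = 0 := by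
    intro v hv h0
    rw [hN, LinearMap.sum_apply, Finset.sum_range_succ', pow_zero, Module.End.one_apply] at h0
    have h2 : ∑ s ∈ Finset.range m, (T ^ (s + 1)) v ∈ ⨆ i, ⨆ (_ : i ≠ j), D i := by
      refine Submodule.sum_mem _ fun s hs => ?_
      have hs' : s + 1 < m + 1 := by have := Finset.mem_range.1 hs; omega
      have hne' : (σ ^ (s + 1)) j ≠ j := by
        intro h
        have := Cfsg.Agent.Lib.Helper25.Dec.pow_apply_injOn σ hr hσr hj hs' (Nat.succ_pos m) (by rw [h, pow_zero]; rfl)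
        omega
      exact (le_iSup₂ (f := fun i (_ : i ≠ j) => D i) _ hne') (hmem _ v hv)
    have h3 : v ∈ ⨆ i, ⨆ (_ : i ≠ j), D i := by
      have : v = -∑ s ∈ Finset.range m, (T ^ (s + 1)) v := by
        rw [eq_neg_iff_add_eq_zero, add_comm]; exact h0
      rw [this]
      exact Submodule.neg_mem _ h2
    exact (Submodule.disjoint_def.1 (hD.indep j)) v hv h3
  let L : D j →ₗ[F] LinearMap.ker (T - 1) := (N.domRestrict (D j)).codRestrict _ (fun v => hNC v)
  have hL : Function.Injective L := by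
    rw [← LinearMap.ker_eq_bot, LinearMap.ker_eq_bot']
    intro v hv
    apply Subtype.ext
    exact hinj v v.2 (congrArg Subtype.val hv)
  have := LinearMap.finrank_le_finrank_of_injective hL
  rw [hD.finrank_eq j] at this
  omega


theorem sum_finrank_eq {L : Type*} [DecidableEq L] {E : L → Submodule F (ι → F)}
    (hE : iSupIndep E) (s : Finset L) :
    ∑ j ∈ s, finrank F (E j) = finrank F ↥(⨆ j ∈ s, E j) := by
  induction s using Finset.induction_on with
  | empty =>
    have : (⨆ j ∈ (∅ : Finset L), E j) = ⊥ := by simp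
    rw [this, finrank_bot, Finset.sum_empty]
  | insert i s hi ih =>
    rw [Finset.sum_insert hi, ih, Finset.iSup_insert]
    have hd : Disjoint (E i) (⨆ j ∈ (s : Set L), E j) := hE.disjoint_biSup (by simpa using hi)
    have h1 := Submodule.finrank_sup_add_finrank_inf_eq (E i) (⨆ j ∈ s, E j)
    have h2 : E i ⊓ (⨆ j ∈ s, E j) = ⊥ := by
      have := hd.eq_bot
      simpa using this
    rw [h2, finrank_bot] at h1
    omega

/-- the `D j ⊓ C` are independent subspaces of `C` (e.g. induction over finsets with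
`Submodule.finrank_sup_add_finrank_inf_eq`, or `iSupIndep` + `DirectSum`). -/
theorem sum_finrank_inf_le {t : ℕ} {D : Fin t → Submodule F (ι → F)} (hD : iSupIndep D)
    (C : Submodule F (ι → F)) : ∑ j, finrank F ↥(D j ⊓ C) ≤ finrank F C := by
  have hE : iSupIndep (fun j => D j ⊓ C) := hD.mono (fun j => inf_le_left)
  rw [sum_finrank_eq hE Finset.univ]
  apply Submodule.finrank_mono
  exact iSup₂_le fun j _ => inf_le_right

end Cfsg.Agent.Lib.Helper25.Sd
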