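import Cfsg.Agent.Lib.Helper25.Sd.Defs

/-! Ladder SD (S5961), rung GRPFR. -/

set_option autoImplicit false

namespace Cfsg.Agent.Lib.Helper25.Sd

open Module Polynomial Cfsg.Agent.Lib.Helper25.Elu Cfsg.Agent.Lib.Helper99

variable {F : Type*} [Field F] {V : Type*} [AddCommGroup V] [Module F V] [FiniteDimensional F V]
  {B : LinearMap.BilinForm F V} {T : End F V} {r : ℕ}

/-- as `Cfsg.Agent.Lib.Helper25.Dec.sum_finrank_eq` (Dec/SUMLE; copy the proof, it is for `Fin n → F` there). -/
theorem sum_finrank_eq' {L : Type*} [DecidableEq L] {E : L → Submodule F V}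
    (hE : iSupIndep E) (s : Finset L) :
    ∑ j ∈ s, finrank F (E j) = finrank F ↥(⨆ j ∈ s, E j) := by
  induction s using Finset.induction_on with
  | empty =>
    have : (⨆ j ∈ (∅ : Finset L), E j) = ⊥ := by simp
    rw [this, finrank_bot, Finset.sum_empty]
  | insert i s hi ih =>
    rw [Finset.sum_insert hi, ih, Finset.iSup_insert]
    have hd : Disjoint (E i) (⨆ j ∈ (s : Set L), E j) := hE.disjoint_biSup (by simpa using hi)
    have h1 := Submodule.finrank_sup_add_finrank_inf_eq (E i) (⨆ j ∈ s, E j)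
    have h2 : E i ⊓ (⨆ j ∈ s, E j) = ⊥ := by
      have := hd.eq_bot
      simpa using this
    rw [h2, finrank_bot] at h1
    omega

end Cfsg.Agent.Lib.Helper25.Sd
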