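import Cfsg.Agent.Lib.Helper25.Sd.Defs

/-! Ladder SD (S5961), rung GRPORTH. -/

set_option autoImplicit false

namespace Cfsg.Agent.Lib.Helper25.Sd

open Module Polynomial Cfsg.Agent.Lib.Helper25.Elu Cfsg.Agent.Lib.Helper99

variable {F : Type*} [Field F] {V : Type*} [AddCommGroup V] [Module F V] [FiniteDimensional F V]
  {B : LinearMap.BilinForm F V} {T : End F V} {r : ℕ}

omit [FiniteDimensional F V] in
theorem grporth_right {L : Type*} {E : L → Submodule F V} {U : Submodule F V} {S' : Set L}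
    (h : ∀ l' ∈ S', Orth B U (E l')) : Orth B U (⨆ l ∈ S', E l) := by
  intro x hx w hw
  have h1 : (⨆ l ∈ S', E l) ≤ LinearMap.ker (B x) := by
    apply iSup₂_le
    intro l' hl' y hy
    rw [LinearMap.mem_ker]
    exact h l' hl' x hx y hy
  exact LinearMap.mem_ker.mp (h1 hw)

/-- `⨆_{l ∈ S'} E l ≤ B.orthogonal (E l0)` for `l0 ∈ S`, twice. -/
theorem orth_biSup (hB : B.IsAlt) {L : Type*} {E : L → Submodule F V}
    (horth : ∀ l l', l ≠ l' → Orth B (E l) (E l')) {S S' : Set L} (hd : Disjoint S S') :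
    Orth B (⨆ l ∈ S, E l) (⨆ l ∈ S', E l) := by
  apply Orth.symm hB
  apply grporth_right
  intro l hl
  apply Orth.symm hB
  apply grporth_right
  intro l' hl'
  exact horth l l' (fun h => Set.disjoint_left.mp hd hl (h ▸ hl'))

end Cfsg.Agent.Lib.Helper25.Sd
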