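import Cfsg.Agent.Lib.Helper25.Sd.Defs
import Cfsg.Agent.Lib.Helper25.Sd.GRPORTH

/-! Ladder SD (S5961), rung GRPND. -/

set_option autoImplicit false

namespace Cfsg.Agent.Lib.Helper25.Sd

open Module Polynomial Cfsg.Agent.Lib.Helper25.Elu Cfsg.Agent.Lib.Helper99

variable {F : Type*} [Field F] {V : Type*} [AddCommGroup V] [Module F V] [FiniteDimensional F V]
  {B : LinearMap.BilinForm F V} {T : End F V} {r : ℕ}

omit [FiniteDimensional F V] in
theorem grpnd_sup (hB : B.IsAlt) {U W : Submodule F V} (hU : NondegOn B U) (hW : NondegOn B W)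
    (h : Orth B U W) : NondegOn B (U ⊔ W) := by
  intro v hv hv0
  obtain ⟨u, hu, w, hw, rfl⟩ := Submodule.mem_sup.mp hv
  by_cases hu0 : u = 0
  · have hw0 : w ≠ 0 := by
      intro hw0
      apply hv0
      rw [hu0, hw0, add_zero]
    obtain ⟨y, hy, hBy⟩ := hW w hw hw0
    refine ⟨y, Submodule.mem_sup_right hy, ?_⟩
    rw [map_add, LinearMap.add_apply, h u hu y hy, zero_add]
    exact hBy
  · obtain ⟨y, hy, hBy⟩ := hU u hu hu0
    refine ⟨y, Submodule.mem_sup_left hy, ?_⟩
    rw [map_add, LinearMap.add_apply, (Orth.symm hB h) w hw y hy, add_zero]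
    exact hBy

/-- induction on the finite set `S`. -/
theorem nondegOn_biSup (hB : B.IsAlt) {L : Type*} [Finite L] {E : L → Submodule F V}
    (hnd : ∀ l, NondegOn B (E l)) (horth : ∀ l l', l ≠ l' → Orth B (E l) (E l')) (S : Set L) :
    NondegOn B (⨆ l ∈ S, E l) := by
  induction S, S.toFinite using Set.Finite.induction_on with
  | empty =>
    intro v hv hv0
    simp at hv
    exact absurd hv hv0
  | @insert a s ha _ ih =>
    rw [iSup_insert]
    apply grpnd_sup hB (hnd a) ih
    apply grporth_right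
    intro l' hl'
    exact horth a l' (fun h => ha (h ▸ hl'))

end Cfsg.Agent.Lib.Helper25.Sd
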