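import Cfsg.Agent.Lib.Helper25.Sd.Defs

/-! Ladder SD (S5961), rung INDEP. -/

set_option autoImplicit false

namespace Cfsg.Agent.Lib.Helper25.Sd

open Module Polynomial Cfsg.Agent.Lib.Helper25.Elu Cfsg.Agent.Lib.Helper99

variable {F : Type*} [Field F] {V : Type*} [AddCommGroup V] [Module F V] [FiniteDimensional F V]
  {B : LinearMap.BilinForm F V} {T : End F V} {r : ℕ}

/-- `v ∈ E l ⊓ ⨆_{l' ≠ l} E l'` is orthogonal to `E l` (`Submodule.iSup_induction` or `iSup_le` into `(B.orthogonal (E l))`). -/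
theorem iSupIndep_of_orth (hB : B.IsAlt) {L : Type*} {E : L → Submodule F V}
    (hnd : ∀ l, NondegOn B (E l)) (horth : ∀ l l', l ≠ l' → Orth B (E l) (E l')) : iSupIndep E := by
  intro l
  rw [Submodule.disjoint_def]
  intro v hv hv'
  by_contra hne
  obtain ⟨y, hy, hBy⟩ := hnd l v hv hne
  have hle : (⨆ (j) (_ : j ≠ l), E j) ≤ B.orthogonal (E l) := by
    refine iSup_le fun j => iSup_le fun hj => ?_
    intro w hw
    rw [LinearMap.BilinForm.mem_orthogonal_iff]
    intro n hn
    exact horth l j (Ne.symm hj) n hn w hw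
  have h1 := hle hv'
  rw [LinearMap.BilinForm.mem_orthogonal_iff] at h1
  have h2 : B y v = 0 := h1 y hy
  apply hBy
  rw [skew_of_alt hB, h2, neg_zero]

end Cfsg.Agent.Lib.Helper25.Sd
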