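import Cfsg.Agent.Lib.Helper25.Sd.Defs
import Cfsg.Agent.Lib.Helper25.Sd.INDEP
import Cfsg.Agent.Lib.Helper25.Sd.GRPND
import Cfsg.Agent.Lib.Helper25.Sd.GRPORTH
import Cfsg.Agent.Lib.Helper25.Sd.GRPFR

/-! Ladder SD (S5961), rung GROUP. -/

set_option autoImplicit false

namespace Cfsg.Agent.Lib.Helper25.Sd

open Module Polynomial Cfsg.Agent.Lib.Helper25.Elu Cfsg.Agent.Lib.Helper99

section
variable {F : Type*} [Field F] {V : Type*} [AddCommGroup V] [Module F V] {T : End F V} {r : ℕ}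

theorem group_map_eq (h : T ^ r = 1) (hr : 0 < r) {W : Submodule F V} (hW : IsInv T W) :
    W.map T = W := by
  apply le_antisymm (isInv_iff_map_le.mp hW)
  intro w hw
  refine ⟨(T ^ (r - 1)) w, hW.pow (r - 1) w hw, ?_⟩
  have h1 : T * T ^ (r - 1) = 1 := by rw [← pow_succ', Nat.sub_add_cancel hr, h]
  calc T ((T ^ (r - 1)) w) = (T * T ^ (r - 1)) w := rfl
    _ = w := by rw [h1]; rfl

theorem group_isInv_biSup {L : Type*} {E : L → Submodule F V} (hE : ∀ l, IsInv T (E l))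
    (S : Set L) : IsInv T (⨆ l ∈ S, E l) := by
  rw [isInv_iff_map_le, Submodule.map_iSup]
  refine iSup_le fun l => ?_
  rw [Submodule.map_iSup]
  refine iSup_le fun hl => ?_
  exact le_trans (isInv_iff_map_le.mp (hE l)) (le_iSup₂_of_le l hl le_rfl)

end

variable {F : Type*} [Field F] {ι : Type} [Fintype ι] {B : LinearMap.BilinForm F (ι → F)}
  {T : End F (ι → F)} {r : ℕ}

/-- `β = Sum.elim f₁ f₂`, `D j = ⨆ l ∈ {l | β l = j}, E l`. -/
theorem sstab_of_pieces (h : Ctx B T r) (hr : 0 < r) {γ k c a t : ℕ}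
    (E : Fin γ ⊕ Fin k → Submodule F (ι → F)) (hgood : ∀ l, Good B T (E l))
    (horth : ∀ l l', l ≠ l' → Orth B (E l) (E l'))
    (h2 : ∀ u, finrank F (E (Sum.inl u)) = 2) (hc : ∀ u, finrank F (E (Sum.inr u)) = c)
    (htop : iSup E = ⊤) (f₁ : Fin γ → Fin t) (f₂ : Fin k → Fin t)
    (hfib : ∀ j, 2 * Fintype.card {u // f₁ u = j} + c * Fintype.card {u // f₂ u = j} = a)
    (ha : 0 < a) (ht : 2 ≤ t) : SStab B T a t := by
  classical
  obtain ⟨β, hβ⟩ : ∃ β : Fin γ ⊕ Fin k → Fin t, β = Sum.elim f₁ f₂ := ⟨_, rfl⟩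
  obtain ⟨D, hD⟩ : ∃ D : Fin t → Submodule F (ι → F), D = fun j => ⨆ l ∈ {l | β l = j}, E l :=
    ⟨_, rfl⟩
  have hDj : ∀ j, D j = ⨆ l ∈ {l | β l = j}, E l := fun j => by rw [hD]
  have hnd : ∀ j, NondegOn B (D j) := by
    intro j
    rw [hDj]
    exact nondegOn_biSup h.alt (fun l => (hgood l).nd) horth _
  have hor : ∀ j j', j ≠ j' → Orth B (D j) (D j') := by
    intro j j' hjj
    rw [hDj, hDj]
    apply orth_biSup h.alt horth
    rw [Set.disjoint_left]
    intro l hl hl'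
    exact hjj (hl.symm.trans hl')
  have hEind : iSupIndep E := iSupIndep_of_orth h.alt (fun l => (hgood l).nd) horth
  have hfr : ∀ j, finrank F (D j) = a := by
    intro j
    have h1 := sum_finrank_eq' hEind (Finset.univ.filter (fun l => β l = j))
    have h3 : (⨆ l ∈ Finset.univ.filter (fun l => β l = j), E l) = D j := by
      rw [hDj]
      simp only [Finset.mem_filter, Finset.mem_univ, true_and, Set.mem_setOf_eq]
    rw [h3] at h1
    rw [← h1, Finset.sum_filter, Fintype.sum_sum_type]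
    simp only [hβ, Sum.elim_inl, Sum.elim_inr, h2, hc]
    rw [← Finset.sum_filter, ← Finset.sum_filter, Finset.sum_const, Finset.sum_const, smul_eq_mul,
      smul_eq_mul, ← hfib j, Fintype.card_subtype, Fintype.card_subtype]
    ring
  have htopD : iSup D = ⊤ := by
    rw [eq_top_iff, ← htop]
    refine iSup_le fun l => ?_
    refine le_trans ?_ (le_iSup D (β l))
    rw [hDj]
    exact le_iSup₂_of_le l rfl le_rfl
  refine ⟨D, ⟨⟨ht, ha, hfr, iSupIndep_of_orth h.alt hnd hor, htopD⟩, hnd, hor⟩, 1, fun j => ?_⟩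
  rw [Equiv.Perm.one_apply]
  apply group_map_eq h.pow hr
  rw [hDj]
  exact group_isInv_biSup (fun l => (hgood l).inv) _

end Cfsg.Agent.Lib.Helper25.Sd
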