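import Cfsg.Agent.Lib.Helper25.Sd.Defs

/-! Ladder SD (S5961), rung NONISO. -/

set_option autoImplicit false

namespace Cfsg.Agent.Lib.Helper25.Sd

open Module Polynomial Cfsg.Agent.Lib.Helper25.Elu Cfsg.Agent.Lib.Helper99

variable {F : Type*} [Field F] {V : Type*} [AddCommGroup V] [Module F V] [FiniteDimensional F V]
  {B : LinearMap.BilinForm F V} {T : End F V} {r : ℕ}

/-- otherwise `(u, v) ↦ B u (T v)` is alternating on `P`: `B u (T v) = - B v (T u) = B (T u) v = B u (T^(r-1) v)`, so
`T v - T^(r-1) v ∈ P` is in the radical: `T^2 v = v`, and `T^r v = v` with `r` odd: `T v = v`, `v = 0`. -/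
theorem exists_not_isotropic (h : Ctx B T r) (hr : r.Prime) (hr2 : r ≠ 2) {P : Submodule F V}
    (hP : Good B T P) (hne : P ≠ ⊥) (hfix : P ⊓ Fx T = ⊥) : ∃ w ∈ P, B w (T w) ≠ 0 := by
  by_contra hcon
  push Not at hcon
  have hr1 : r = (r - 1) + 1 := by have := hr.pos; omega
  have hTS : ∀ v, T ((T ^ (r - 1)) v) = v := by
    intro v
    have h1 : T * T ^ (r - 1) = 1 := by rw [← pow_succ', ← hr1, h.pow]
    have h2 := congrArg (fun f => f v) h1
    simpa using h2
  have hinv : ∀ k : ℕ, ∀ v ∈ P, (T ^ k) v ∈ P := by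
    intro k
    induction k with
    | zero => intro v hv; simpa using hv
    | succ k ih =>
      intro v hv
      rw [pow_succ', Module.End.mul_apply]
      exact hP.inv _ (ih v hv)
  have hpol : ∀ u ∈ P, ∀ v ∈ P, B u (T v) + B v (T u) = 0 := by
    intro u hu v hv
    have h1 := hcon (u + v) (P.add_mem hu hv)
    have h2 := hcon u hu
    have h3 := hcon v hv
    simp only [map_add, LinearMap.add_apply] at h1
    linear_combination h1 - h2 - h3
  have hall : ∀ v ∈ P, v = 0 := by
    intro v hv
    have hx : T v - (T ^ (r - 1)) v = 0 := by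
      by_contra hx0
      obtain ⟨y, hy, hBy⟩ := hP.nd _ (P.sub_mem (hP.inv v hv) (hinv _ v hv)) hx0
      apply hBy
      have e1 : B y (T v) = - B v (T y) := by linear_combination hpol y hy v hv
      have e2 : B v (T y) = - B (T y) v := skew_of_alt h.alt _ _
      have e3 : B (T y) v = B y ((T ^ (r - 1)) v) := by
        conv_lhs => rw [← hTS v]
        exact h.iso _ _
      rw [skew_of_alt h.alt, map_sub, e1, e2, e3]
      ring
    have hsq : T (T v) = v := by
      have h1 : T v = (T ^ (r - 1)) v := sub_eq_zero.mp hx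
      rw [h1, hTS]
    have hpow : ∀ k : ℕ, (T ^ (2 * k)) v = v := by
      intro k
      induction k with
      | zero => simp
      | succ k ih =>
        have e : 2 * (k + 1) = 2 * k + 1 + 1 := by ring
        rw [e, pow_succ, pow_succ, Module.End.mul_apply, Module.End.mul_apply, hsq, ih]
    have hodd : Odd r := hr.eq_two_or_odd'.resolve_left hr2
    obtain ⟨k, hk⟩ := hodd
    have hTv : T v = v := by
      have h1 : (T ^ r) v = v := by rw [h.pow]; rfl
      rw [hk, pow_succ', Module.End.mul_apply, hpow] at h1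
      exact h1
    have hmem : v ∈ P ⊓ Fx T := ⟨hv, mem_Fx.mpr hTv⟩
    rw [hfix] at hmem
    exact (Submodule.mem_bot F).mp hmem
  exact hne ((Submodule.eq_bot_iff P).mpr hall)

end Cfsg.Agent.Lib.Helper25.Sd
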