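import Cfsg.Agent.Lib.Helper25.Sd.Defs
import Cfsg.Agent.Lib.Helper25.Sd.INVP
import Cfsg.Agent.Lib.Helper25.Elu.DIVI

/-! Ladder SD (S5961), rung RAD. -/

set_option autoImplicit false

namespace Cfsg.Agent.Lib.Helper25.Sd

open Module Polynomial Cfsg.Agent.Lib.Helper25.Elu Cfsg.Agent.Lib.Helper99

variable {F : Type*} [Field F] {V : Type*} [AddCommGroup V] [Module F V] [FiniteDimensional F V]
  {B : LinearMap.BilinForm F V} {T : End F V} {r : ℕ}

/-- `Z ⊓ Z^⊥` is invariant (INVP) without fixed vectors: its dimension is divisible by `ordq` (`ordq_dvd_finrank`) and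
`≤ ordq`: it is `⊥` or `Z`. -/
theorem nondeg_or_isotropic [Fintype F] {p : ℕ} [Fact p.Prime] [CharP F p] [Fact r.Prime] (hrp : r ≠ p) (h : Ctx B T r) {Z : Submodule F V} (hZ : IsInv T Z)
    (hfix : Z ⊓ Fx T = ⊥) (hdim : finrank F Z = ordq F r) : NondegOn B Z ∨ Orth B Z Z := by
  have hr : 0 < r := (Fact.out : r.Prime).pos
  have hRinv : IsInv T (Z ⊓ B.orthogonal Z) := hZ.inf (isInv_orthogonal h hr hZ)
  have hRfix : ∀ w ∈ Z ⊓ B.orthogonal Z, T w = w → w = 0 := by
    intro w hw hTw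
    have h1 : w ∈ Z ⊓ Fx T := ⟨hw.1, mem_Fx.2 hTw⟩
    rw [hfix] at h1
    exact (Submodule.mem_bot F).1 h1
  have hdvd := ordq_dvd_finrank T hrp h.pow (Z ⊓ B.orthogonal Z) hRinv hRfix
  have hle : finrank F ↥(Z ⊓ B.orthogonal Z) ≤ finrank F Z := Submodule.finrank_mono inf_le_left
  rw [← hdim] at hdvd
  by_cases h0 : finrank F ↥(Z ⊓ B.orthogonal Z) = 0
  · left
    have hRbot : Z ⊓ B.orthogonal Z = ⊥ := Submodule.finrank_eq_zero.1 h0
    intro v hv hv0
    by_contra hcon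
    push Not at hcon
    apply hv0
    have h2 : v ∈ B.orthogonal Z := by
      rw [LinearMap.BilinForm.mem_orthogonal_iff]
      intro n hn
      show B n v = 0
      rw [skew_of_alt h.alt, hcon n hn, neg_zero]
    have h1 : v ∈ Z ⊓ B.orthogonal Z := Submodule.mem_inf.2 ⟨hv, h2⟩
    rw [hRbot] at h1
    exact (Submodule.mem_bot F).1 h1
  · right
    have heq : finrank F ↥(Z ⊓ B.orthogonal Z) = finrank F Z :=
      le_antisymm hle (Nat.le_of_dvd (Nat.pos_of_ne_zero h0) hdvd)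
    have hRZ : Z ⊓ B.orthogonal Z = Z := Submodule.eq_of_le_of_finrank_eq inf_le_left heq
    intro u hu w hw
    have h1 : w ∈ Z ⊓ B.orthogonal Z := by rw [hRZ]; exact hw
    exact (LinearMap.BilinForm.mem_orthogonal_iff.1 (Submodule.mem_inf.1 h1).2) u hu

end Cfsg.Agent.Lib.Helper25.Sd
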