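import Cfsg.Agent.Lib.Helper25.Sd.Defs
import Cfsg.Agent.Lib.Helper25.Sd.NONISO
import Cfsg.Agent.Lib.Helper25.Sd.RAD
import Cfsg.Agent.Lib.Helper25.Elu.CYC
import Cfsg.Agent.Lib.Helper25.Elu.DIVI

/-! Ladder SD (S5961), rung HALF. -/

set_option autoImplicit false

namespace Cfsg.Agent.Lib.Helper25.Sd

open Module Polynomial Cfsg.Agent.Lib.Helper25.Elu Cfsg.Agent.Lib.Helper99

variable {F : Type*} [Field F] {V : Type*} [AddCommGroup V] [Module F V] [FiniteDimensional F V]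
  {B : LinearMap.BilinForm F V} {T : End F V} {r : ℕ}

/-- `w` from NONISO; `Z` the cyclic subspace of `w` (Elu/CYC `exists_cyclic T χ`): `Z ≤ P`, `dim Z ≤ ordq`, `ordq ∣ dim Z ≠ 0`
(`ordq_dvd_finrank`), so `dim Z = ordq`; RAD: nondegenerate or isotropic; `w, T w ∈ Z` with `B w (T w) ≠ 0`. -/
theorem exists_nondeg_half [Fintype F] {p : ℕ} [Fact p.Prime] [CharP F p] [Fact r.Prime] (hrp : r ≠ p) (hr2 : r ≠ 2) (h : Ctx B T r) {P : Submodule F V}
    (hP : Good B T P) (hne : P ≠ ⊥) (hfix : P ⊓ Fx T = ⊥) (χ : F[X]) (hχ : χ.Monic)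
    (hdeg : χ.natDegree = ordq F r) (hkill : ∀ v ∈ P, aeval T χ v = 0) :
    ∃ Z : Submodule F V, Z ≤ P ∧ Good B T Z ∧ finrank F Z = ordq F r := by
  obtain ⟨w, hwP, hw⟩ := exists_not_isotropic h (Fact.out : r.Prime) hr2 hP hne hfix
  obtain ⟨Z, hZinv, hwZ, hfin, hle, hmin⟩ := exists_cyclic T χ hχ w (hkill w hwP)
  have hZP : Z ≤ P := hmin P hP.inv hwP
  have hfixZ : Z ⊓ Fx T = ⊥ := by
    rw [eq_bot_iff, ← hfix]
    exact inf_le_inf_right _ hZP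
  have hfix' : ∀ x ∈ Z, T x = x → x = 0 := by
    intro x hx hTx
    have : x ∈ Z ⊓ Fx T := ⟨hx, mem_Fx.2 hTx⟩
    rw [hfixZ] at this
    exact (Submodule.mem_bot F).1 this
  have hdvd : ordq F r ∣ finrank F Z := ordq_dvd_finrank T hrp h.pow Z hZinv hfix'
  have hw0 : w ≠ 0 := by
    rintro rfl
    apply hw
    simp
  have hZne : Z ≠ ⊥ := by
    intro h0
    rw [h0] at hwZ
    exact hw0 ((Submodule.mem_bot F).1 hwZ)
  have hpos : 0 < finrank F Z := by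
    rw [Nat.pos_iff_ne_zero]
    intro h0
    exact hZne (Submodule.finrank_eq_zero.1 h0)
  have hdim : finrank F Z = ordq F r :=
    le_antisymm (hdeg ▸ hle) (Nat.le_of_dvd hpos hdvd)
  rcases nondeg_or_isotropic hrp h hZinv hfixZ hdim with hnd | hiso
  · exact ⟨Z, hZP, ⟨hnd, hZinv⟩, hdim⟩
  · exact absurd (hiso w hwZ (T w) (hZinv w hwZ)) hw

end Cfsg.Agent.Lib.Helper25.Sd
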