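import Cfsg.Agent.Lib.Helper25.Sd.Defs

/-! Ladder SD (S5961), rung INVPOW. -/

set_option autoImplicit false

namespace Cfsg.Agent.Lib.Helper25.Sd

open Module Polynomial Cfsg.Agent.Lib.Helper25.Elu Cfsg.Agent.Lib.Helper99

variable {F : Type*} [Field F] {V : Type*} [AddCommGroup V] [Module F V] {T : End F V} {r : ℕ}

/-- in the field `ZMod r`: `(q^(i/2))^2 = 1`, `q^(i/2) ≠ 1` (`i` is the order of `q`), so `q^(i/2) = -1`: `r ∣ q^(i/2) + 1`,
`q^(i/2) = r m + (r - 1)`. -/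
theorem pow_card_half [Fintype F] {p : ℕ} [Fact p.Prime] [CharP F p] [Fact r.Prime] (hrp : r ≠ p) (hT : T ^ r = 1) (hev : Even (ordq F r)) :
    T ^ (Fintype.card F ^ (ordq F r / 2)) = T ^ (r - 1) := by
  have hr : r.Prime := Fact.out
  set q := Fintype.card F with hq
  set i := ordq F r with hi
  have hq0 : ((q : ℕ) : ZMod r) ≠ 0 := by
    intro h0
    rw [ZMod.natCast_eq_zero_iff] at h0
    obtain ⟨n, hn, hcard⟩ := FiniteField.card F p
    rw [hq, hcard] at h0
    have := (Nat.prime_dvd_prime_iff_eq hr hn).1 (hr.dvd_of_dvd_pow h0)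
    exact hrp this
  have hipos : 0 < i := by
    rw [hi, ordq]
    exact orderOf_pos_iff.2 (isOfFinOrder_iff_pow_eq_one.2 ⟨r - 1, by have := hr.two_le; omega,
      ZMod.pow_card_sub_one_eq_one hq0⟩)
  obtain ⟨m, hm⟩ := hev
  have hm0 : 0 < m := by omega
  have hhalf : i / 2 = m := by omega
  rw [hhalf]
  have h1 : ((q : ℕ) : ZMod r) ^ i = 1 := by rw [hi, ordq]; exact pow_orderOf_eq_one _
  have h2 : (((q : ℕ) : ZMod r) ^ m) ^ 2 = 1 := by rw [← pow_mul, ← h1]; congr 1; omega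
  have h3 : ((q : ℕ) : ZMod r) ^ m ≠ 1 := by
    intro h
    have := orderOf_dvd_of_pow_eq_one h
    have h4 : i ∣ m := by rw [hi, ordq]; exact this
    have := Nat.le_of_dvd hm0 h4
    omega
  have h5 : ((q : ℕ) : ZMod r) ^ m = -1 := by
    rcases (sq_eq_one_iff.1 h2) with h | h
    · exact absurd h h3
    · exact h
  have h6 : r ∣ q ^ m + 1 := by
    rw [← ZMod.natCast_eq_zero_iff]
    push_cast
    rw [h5]; ring
  obtain ⟨k, hk⟩ := h6
  have hk0 : 0 < k := by
    rcases Nat.eq_zero_or_pos k with h | h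
    · subst h; simp at hk
    · exact h
  have h7 : q ^ m = r * (k - 1) + (r - 1) := by
    obtain ⟨k', rfl⟩ : ∃ k', k = k' + 1 := ⟨k - 1, by omega⟩
    have := hr.two_le
    simp only [Nat.add_sub_cancel]
    rw [Nat.mul_add] at hk
    omega
  rw [h7, pow_add, pow_mul, hT, one_pow, one_mul]

end Cfsg.Agent.Lib.Helper25.Sd
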