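import Cfsg.Agent.Lib.Helper25.Sd.Defs
import Cfsg.Agent.Lib.Helper25.Sd.INVP
import Cfsg.Agent.Lib.Helper25.Elu.SS

/-! Ladder SD (S5961), rung ISOT. -/

set_option autoImplicit false

namespace Cfsg.Agent.Lib.Helper25.Sd

open Module Polynomial Cfsg.Agent.Lib.Helper25.Elu Cfsg.Agent.Lib.Helper99

variable {F : Type*} [Field F] {V : Type*} [AddCommGroup V] [Module F V] [FiniteDimensional F V]
  {B : LinearMap.BilinForm F V} {T : End F V} {r : ℕ}

/-- `T` is semisimple (Elu/SS `isSemisimple_of_pow`, `exists_isInv_isCompl`): invariant `Q` with `IsCompl (W ⊓ Z^⊥) Q`;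
`Z' = Q ⊓ W`. `dim (W ⊓ Z^⊥) = dim W - dim Z` as `W` is nondegenerate. If `z + z'` is in the radical of `Z ⊔ Z'`:
`B (z + z') Z = 0` gives `z' ∈ Z^⊥`, `z' = 0`; then `B z Z' = 0 = B z (W ⊓ Z^⊥)` gives `B z W = 0`, `z = 0`. -/
theorem exists_dual_piece (h : Ctx B T r) (hrF : (r : F) ≠ 0) {W Z : Submodule F V}
    (hW : Good B T W) (hZ : IsInv T Z) (hZW : Z ≤ W) (hiso : Orth B Z Z) :
    ∃ Z' : Submodule F V, Z' ≤ W ∧ IsInv T Z' ∧ finrank F Z' = finrank F Z ∧ Disjoint Z Z' ∧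
      Z' ⊓ B.orthogonal Z = ⊥ ∧ NondegOn B (Z ⊔ Z') := by
  have hr : 0 < r := by
    rcases Nat.eq_zero_or_pos r with rfl | h0
    · exact absurd (by simp) hrF
    · exact h0
  have hss : T.IsSemisimple := isSemisimple_of_pow T hrF one_ne_zero (by rw [h.pow, one_smul])
  have hinvO : IsInv T (B.orthogonal Z) := isInv_orthogonal h hr hZ
  have hinvY : IsInv T (W ⊓ B.orthogonal Z) := fun v hv => ⟨hW.inv v hv.1, hinvO v hv.2⟩
  obtain ⟨Q, hQ, hc⟩ := exists_isInv_isCompl hss hinvY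
  have hbot : ∀ x, x ∈ W → x ∈ B.orthogonal Z → x ∈ Q → x = 0 := by
    intro x h1 h2 h3
    have : x ∈ (W ⊓ B.orthogonal Z) ⊓ Q := ⟨⟨h1, h2⟩, h3⟩
    rw [hc.inf_eq_bot] at this
    exact (Submodule.mem_bot F).mp this
  have hdec : ∀ w ∈ W, ∃ y ∈ W ⊓ B.orthogonal Z, ∃ q ∈ Q ⊓ W, w = y + q := by
    intro w hw
    have hw' : w ∈ (W ⊓ B.orthogonal Z) ⊔ Q := by rw [hc.sup_eq_top]; exact Submodule.mem_top
    obtain ⟨y, hy, q, hq, e⟩ := Submodule.mem_sup.1 hw'
    refine ⟨y, hy, q, ⟨hq, ?_⟩, e.symm⟩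
    have : q = w - y := by rw [← e]; abel
    rw [this]
    exact W.sub_mem hw hy.1
  have hK : ∀ z ∈ Z, (∀ y ∈ Q ⊓ W, B z y = 0) → z = 0 := by
    intro z hz hzy
    by_contra hne
    obtain ⟨w, hw, hzw⟩ := hW.nd z (hZW hz) hne
    obtain ⟨y, hy, q, hq, rfl⟩ := hdec w hw
    apply hzw
    rw [map_add, hy.2 z hz, hzy q hq, add_zero]
  have hK' : ∀ z' ∈ Q ⊓ W, (∀ n ∈ Z, B n z' = 0) → z' = 0 := by
    intro z' hz' hn
    exact hbot z' hz'.2 hn hz'.1
  refine ⟨Q ⊓ W, inf_le_right, fun v hv => ⟨hQ v hv.1, hW.inv v hv.2⟩, ?_, ?_, ?_, ?_⟩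
  · apply le_antisymm
    · have hinj : Function.Injective (B.flip.domRestrict₁₂ (Q ⊓ W) Z) := by
        rw [injective_iff_map_eq_zero]
        intro x hx
        apply Subtype.ext
        apply hK' x.1 x.2
        intro n hn
        exact LinearMap.congr_fun hx ⟨n, hn⟩
      have := LinearMap.finrank_le_finrank_of_injective hinj
      rwa [show finrank F (↥Z →ₗ[F] F) = finrank F Z from Subspace.dual_finrank_eq] at this
    · have hinj : Function.Injective (B.domRestrict₁₂ Z (Q ⊓ W)) := by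
        rw [injective_iff_map_eq_zero]
        intro x hx
        apply Subtype.ext
        apply hK x.1 x.2
        intro n hn
        exact LinearMap.congr_fun hx ⟨n, hn⟩
      have := LinearMap.finrank_le_finrank_of_injective hinj
      rwa [show finrank F (↥(Q ⊓ W) →ₗ[F] F) = finrank F ↥(Q ⊓ W) from Subspace.dual_finrank_eq]
        at this
  · rw [Submodule.disjoint_def]
    intro x hx hx'
    exact hbot x hx'.2 (fun n hn => hiso n hn x hx) hx'.1
  · rw [eq_bot_iff]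
    intro x hx
    rw [Submodule.mem_bot]
    exact hbot x hx.1.2 hx.2 hx.1.1
  · intro v hv hv0
    by_contra hcon
    push Not at hcon
    obtain ⟨z, hz, z', hz', rfl⟩ := Submodule.mem_sup.1 hv
    have hz'0 : z' = 0 := by
      apply hK' z' hz'
      intro n hn
      have := hcon n (Submodule.mem_sup_left hn)
      rw [map_add, LinearMap.add_apply, hiso z hz n hn, zero_add] at this
      rw [skew_of_alt h.alt, this, neg_zero]
    have hz0 : z = 0 := by
      apply hK z hz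
      intro y hy
      have := hcon y (Submodule.mem_sup_right hy)
      rwa [hz'0, add_zero] at this
    apply hv0
    rw [hz0, hz'0, add_zero]

end Cfsg.Agent.Lib.Helper25.Sd
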