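import Cfsg.Agent.Lib.Helper25.Sd.Defs
import Cfsg.Agent.Lib.Helper25.Sd.ADJ
import Cfsg.Agent.Lib.Helper25.Sd.FROB
import Cfsg.Agent.Lib.Helper25.Sd.INVPOW

/-! Ladder SD (S5961), rung KILL. -/

set_option autoImplicit false

namespace Cfsg.Agent.Lib.Helper25.Sd

open Module Polynomial Cfsg.Agent.Lib.Helper25.Elu Cfsg.Agent.Lib.Helper99

variable {F : Type*} [Field F] {V : Type*} [AddCommGroup V] [Module F V] [FiniteDimensional F V]
  {B : LinearMap.BilinForm F V} {T : End F V} {r : ℕ}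

/-- polynomials in a restricted endomorphism. -/
theorem kill_aeval_restrict {Z : Submodule F V} (hZ : ∀ v ∈ Z, T v ∈ Z) (f : F[X]) :
    ∀ z : Z, aeval T f (z : V) = ((aeval (T.restrict hZ) f z : Z) : V) := by
  induction f using Polynomial.induction_on with
  | C a =>
    intro z
    simp [Module.algebraMap_end_apply]
  | add f g hf hg =>
    intro z
    rw [map_add, map_add, LinearMap.add_apply, LinearMap.add_apply, Submodule.coe_add, hf, hg]
  | monomial n a ih =>
    intro z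
    have e : (C a * X ^ (n + 1) : F[X]) = (C a * X ^ n) * X := by rw [pow_succ, mul_assoc]
    have e1 : aeval T ((C a * X ^ n) * X : F[X]) = aeval T (C a * X ^ n : F[X]) * T := by
      rw [map_mul (aeval T) (C a * X ^ n : F[X]) X, aeval_X]
    have e2 : aeval (T.restrict hZ) ((C a * X ^ n) * X : F[X])
        = aeval (T.restrict hZ) (C a * X ^ n : F[X]) * T.restrict hZ := by
      rw [map_mul (aeval (T.restrict hZ)) (C a * X ^ n : F[X]) X, aeval_X]
    have h1 : T (z : V) = ((T.restrict hZ z : Z) : V) := rfl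
    rw [e, e1, e2, Module.End.mul_apply, Module.End.mul_apply, h1, ih]

/-- `χ = charpoly (T.restrict hZ)` (`LinearMap.aeval_self_charpoly`, `LinearMap.charpoly_monic`, `LinearMap.charpoly_natDegree`).
For `w' ∈ Z'`: `χ(T) w' ∈ Z'`, and for `z ∈ Z`: `B z (χ(T) w') = B (χ(T^(r-1)) z) w'` (ADJ) `= B (χ(T)^(q^(i/2)) z) w' = 0`
(INVPOW, FROB). -/
theorem exists_kill [Fintype F] {p : ℕ} [Fact p.Prime] [CharP F p] [Fact r.Prime] (hrp : r ≠ p) (h : Ctx B T r) (hev : Even (ordq F r)) {Z Z' : Submodule F V}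
    (hZ : IsInv T Z) (hZ' : IsInv T Z') (hdual : Z' ⊓ B.orthogonal Z = ⊥) :
    ∃ χ : F[X], χ.Monic ∧ χ.natDegree = finrank F Z ∧ ∀ v ∈ Z ⊔ Z', aeval T χ v = 0 := by
  have hr : 0 < r := (Fact.out : r.Prime).pos
  obtain ⟨χ, hχ⟩ : ∃ χ : F[X], χ = (T.restrict hZ).charpoly := ⟨_, rfl⟩
  have hkillZ : ∀ z ∈ Z, aeval T χ z = 0 := by
    intro z hz
    have h1 := kill_aeval_restrict hZ χ ⟨z, hz⟩
    rw [hχ, LinearMap.aeval_self_charpoly] at h1
    rw [hχ]
    exact h1
  refine ⟨χ, by rw [hχ]; exact LinearMap.charpoly_monic _, by rw [hχ]; exact LinearMap.charpoly_natDegree _, ?_⟩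
  have hkillZ' : ∀ w ∈ Z', aeval T χ w = 0 := by
    intro w hw
    have hmem : aeval T χ w ∈ Z' ⊓ B.orthogonal Z := by
      refine ⟨hZ'.aeval χ w hw, ?_⟩
      rw [SetLike.mem_coe, LinearMap.BilinForm.mem_orthogonal_iff]
      intro z hz
      show B z (aeval T χ w) = 0
      rw [adj_aeval' h hr, ← pow_card_half hrp h.pow hev, aeval_pow_card]
      have hpos : 0 < Fintype.card F ^ (ordq F r / 2) := pow_pos Fintype.card_pos _
      obtain ⟨m, hm⟩ := Nat.exists_eq_succ_of_ne_zero hpos.ne'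
      rw [hm, Nat.succ_eq_add_one, pow_succ, Module.End.mul_apply, hkillZ z hz, map_zero,
        LinearMap.map_zero, LinearMap.zero_apply]
    rw [hdual] at hmem
    exact (Submodule.mem_bot F).mp hmem
  intro v hv
  obtain ⟨z, hz, w, hw, rfl⟩ := Submodule.mem_sup.mp hv
  rw [map_add, hkillZ z hz, hkillZ' w hw, add_zero]

end Cfsg.Agent.Lib.Helper25.Sd
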