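import Cfsg.Agent.Lib.Helper25.Sd.Defs
import Cfsg.Agent.Lib.Helper25.Dec.FIB

/-! Ladder SD (S5961), rung LABEL. -/

set_option autoImplicit false

namespace Cfsg.Agent.Lib.Helper25.Sd

open Module Polynomial Cfsg.Agent.Lib.Helper25.Elu Cfsg.Agent.Lib.Helper99

/-- `Cfsg.Agent.Lib.Helper25.Dec.exists_nums` (`b j ≤ a / c`, `∑ b = k`), `exists_fib` (Dec/FIB): `f₂` with fibres `b j`, `f₁` with
fibres `(a - c * b j) / 2` (their sum is `(a t - c k) / 2 = γ`). -/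
theorem exists_label {γ k c a t : ℕ} (hc : Even c) (ha : Even a) (hc0 : 0 < c)
    (hsum : 2 * γ + c * k = a * t) (hk : k ≤ t * (a / c)) :
    ∃ (f₁ : Fin γ → Fin t) (f₂ : Fin k → Fin t),
      ∀ j, 2 * Fintype.card {u // f₁ u = j} + c * Fintype.card {u // f₂ u = j} = a := by
  obtain ⟨b, hb, hs⟩ := Cfsg.Agent.Lib.Helper25.Dec.exists_nums hk
  have h1 : ∀ j, 2 * ((a - c * b j) / 2) + c * b j = a := by
    intro j
    have h2 : c * b j ≤ a := le_trans (Nat.mul_le_mul_left c (hb j)) (Nat.mul_div_le a c)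
    have h3 : Even (c * b j) := hc.mul_right _
    obtain ⟨x, hx⟩ := h3
    obtain ⟨y, hy⟩ := ha
    omega
  have h4 : ∑ j, (a - c * b j) / 2 = γ := by
    have h5 : ∑ j : Fin t, (2 * ((a - c * b j) / 2) + c * b j) = ∑ j : Fin t, a :=
      Finset.sum_congr rfl (fun j _ => h1 j)
    rw [Finset.sum_add_distrib, ← Finset.mul_sum, ← Finset.mul_sum, hs] at h5
    simp only [Finset.sum_const, Finset.card_univ, Fintype.card_fin, smul_eq_mul] at h5
    have h6 : t * a = a * t := Nat.mul_comm _ _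
    omega
  obtain ⟨f₁, hf₁⟩ := Cfsg.Agent.Lib.Helper25.Dec.exists_fib (fun j => (a - c * b j) / 2) h4
  obtain ⟨f₂, hf₂⟩ := Cfsg.Agent.Lib.Helper25.Dec.exists_fib b hs
  refine ⟨f₁, f₂, fun j => ?_⟩
  rw [hf₁, hf₂]
  exact h1 j

end Cfsg.Agent.Lib.Helper25.Sd
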