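import Cfsg.Agent.Lib.Helper25.Sd.Defs
import Cfsg.Agent.Lib.Helper25.Sd.FIXND

/-! Ladder SD (S5961), rung PLANE. -/

set_option autoImplicit false

namespace Cfsg.Agent.Lib.Helper25.Sd

open Module Polynomial Cfsg.Agent.Lib.Helper25.Elu Cfsg.Agent.Lib.Helper99

variable {F : Type*} [Field F] {V : Type*} [AddCommGroup V] [Module F V] [FiniteDimensional F V]
  {B : LinearMap.BilinForm F V} {T : End F V} {r : ℕ}

/-- a hyperbolic pair spans a nondegenerate plane. -/
theorem plane_span (hB : B.IsAlt) {u v : V} (huv : B u v ≠ 0) :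
    NondegOn B (Submodule.span F {u, v}) ∧ finrank F (Submodule.span F {u, v}) = 2 := by
  have hvu : B v u = - B u v := skew_of_alt hB v u
  constructor
  · intro x hx hx0
    obtain ⟨a, b, rfl⟩ := Submodule.mem_span_pair.1 hx
    by_cases ha : a = 0
    · have hb : b ≠ 0 := by
        rintro rfl
        apply hx0
        rw [ha, zero_smul, zero_smul, add_zero]
      refine ⟨u, Submodule.subset_span (by simp), ?_⟩
      rw [map_add, LinearMap.add_apply, map_smul, map_smul, LinearMap.smul_apply, LinearMap.smul_apply,
        hB u, hvu, smul_zero, zero_add, smul_eq_mul]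
      exact mul_ne_zero hb (neg_ne_zero.2 huv)
    · refine ⟨v, Submodule.subset_span (by simp), ?_⟩
      rw [map_add, LinearMap.add_apply, map_smul, map_smul, LinearMap.smul_apply, LinearMap.smul_apply,
        hB v, smul_zero, add_zero, smul_eq_mul]
      exact mul_ne_zero ha huv
  · have hli : LinearIndependent F ![u, v] := by
      rw [LinearIndependent.pair_iff]
      intro s t hst
      constructor
      · have h1 := congrArg (fun x => B x v) hst
        simp only [map_add, LinearMap.add_apply, map_smul, LinearMap.smul_apply, hB v,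
          mul_zero, add_zero, map_zero, LinearMap.zero_apply, smul_eq_mul] at h1
        exact (mul_eq_zero.1 h1).resolve_right huv
      · have h1 := congrArg (fun x => B u x) hst
        simp only [map_add, map_smul, hB u, mul_zero, zero_add, map_zero, smul_eq_mul] at h1
        exact (mul_eq_zero.1 h1).resolve_right huv
    have h2 := finrank_span_eq_card hli
    have h3 : Set.range ![u, v] = {u, v} := by
      simp [Matrix.range_cons, Matrix.range_empty, Set.pair_comm]
    rw [h3] at h2
    simpa using h2

/-- `W ⊓ Fx T` is nondegenerate (FIXND): `u ≠ 0`, `B u v ≠ 0` in it; `P = span {u, v}`. -/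
theorem exists_plane (h : Ctx B T r) (hrF : (r : F) ≠ 0) {W : Submodule F V} (hW : Good B T W)
    (hne : W ⊓ Fx T ≠ ⊥) :
    ∃ P : Submodule F V, P ≤ W ∧ Good B T P ∧ finrank F P = 2 ∧ P ≤ Fx T := by
  have hnd := nondegOn_inf_fix h hrF hW
  obtain ⟨u, hu, hu0⟩ := Submodule.exists_mem_ne_zero_of_ne_bot hne
  obtain ⟨v, hv, huv⟩ := hnd u hu hu0
  have hle : Submodule.span F {u, v} ≤ W ⊓ Fx T := by
    rw [Submodule.span_le]
    intro x hx
    rcases hx with rfl | rfl
    · exact hu
    · exact hv
  obtain ⟨h1, h2⟩ := plane_span h.alt huv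
  refine ⟨Submodule.span F {u, v}, hle.trans inf_le_left, ⟨h1, ?_⟩, h2, hle.trans inf_le_right⟩
  intro x hx
  have : T x = x := mem_Fx.1 (hle hx).2
  rw [this]
  exact hx

end Cfsg.Agent.Lib.Helper25.Sd
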