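import Cfsg.Agent.Lib.Helper25.Sd.Defs
import Cfsg.Agent.Lib.Helper25.Sd.PLANE
import Cfsg.Agent.Lib.Helper25.Sd.RAD
import Cfsg.Agent.Lib.Helper25.Sd.ISOT
import Cfsg.Agent.Lib.Helper25.Sd.KILL
import Cfsg.Agent.Lib.Helper25.Sd.HALF
import Cfsg.Agent.Lib.Helper25.Sd.EVEN
import Cfsg.Agent.Lib.Helper25.Elu.MINI
import Cfsg.Agent.Lib.Helper25.Elu.ORD

/-! Ladder SD (S5961), rung PIECE. -/

set_option autoImplicit false

namespace Cfsg.Agent.Lib.Helper25.Sd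

open Module Polynomial Cfsg.Agent.Lib.Helper25.Elu Cfsg.Agent.Lib.Helper99

variable {F : Type*} [Field F] {V : Type*} [AddCommGroup V] [Module F V] [FiniteDimensional F V]
  {B : LinearMap.BilinForm F V} {T : End F V} {r : ℕ}

/-- `W ⊓ Fx T ≠ ⊥`: PLANE. Otherwise `Z ≤ W` invariant of dimension `ordq` (Elu/MINI `exists_isInv_finrank_ordq`); RAD:
`Z` nondegenerate (then `ordq` is even by EVEN, `cc = ordq`) or isotropic: ISOT gives `Z ⊔ Z'` of dimension `2 ordq`;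
if `ordq` is odd this is it, if even KILL + HALF. -/
theorem exists_piece [Fintype F] {p : ℕ} [Fact p.Prime] [CharP F p] [Fact r.Prime] (hrp : r ≠ p) (hr2 : r ≠ 2) (h : Ctx B T r) {W : Submodule F V}
    (hW : Good B T W) (hne : W ≠ ⊥) :
    ∃ P : Submodule F V, P ≤ W ∧ Good B T P ∧
      ((finrank F P = 2 ∧ P ≤ Fx T) ∨ (finrank F P = cc F r ∧ P ⊓ Fx T = ⊥)) := by
  have hrF : (r : F) ≠ 0 := natCast_ne_zero hrp
  by_cases hfx : W ⊓ Fx T = ⊥
  swap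
  · obtain ⟨P, hPW, hP, hdim, hle⟩ := exists_plane h hrF hW hfx
    exact ⟨P, hPW, hP, Or.inl ⟨hdim, hle⟩⟩
  have hsub : ∀ P : Submodule F V, P ≤ W → P ⊓ Fx T = ⊥ := by
    intro P hP
    rw [eq_bot_iff, ← hfx]
    exact inf_le_inf_right _ hP
  have hfix : ∀ w ∈ W, T w = w → w = 0 := by
    intro w hw hTw
    have : w ∈ W ⊓ Fx T := ⟨hw, mem_Fx.2 hTw⟩
    rwa [hfx, Submodule.mem_bot] at this
  obtain ⟨Z, hZ, hZW, hZdim⟩ := exists_isInv_finrank_ordq T hrp h.pow W hW.inv hne hfix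
  rcases nondeg_or_isotropic hrp h hZ (hsub Z hZW) hZdim with hnd | hiso
  · have hev : Even (ordq F r) := by
      rw [← hZdim]
      exact even_finrank h.alt hnd
    refine ⟨Z, hZW, ⟨hnd, hZ⟩, Or.inr ⟨?_, hsub Z hZW⟩⟩
    rw [hZdim, cc, if_pos hev]
  · obtain ⟨Z', hZ'W, hZ', hZ'dim, hdis, hdual, hnd⟩ := exists_dual_piece h hrF hW hZ hZW hiso
    have hPW : Z ⊔ Z' ≤ W := sup_le hZW hZ'W
    have hgood : Good B T (Z ⊔ Z') := ⟨hnd, hZ.sup hZ'⟩
    by_cases hev : Even (ordq F r)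
    · obtain ⟨χ, hχ, hdeg, hkill⟩ := exists_kill hrp h hev hZ hZ' hdual
      have hne' : Z ⊔ Z' ≠ ⊥ := by
        intro hb
        have h1 : Z = ⊥ := by
          rw [eq_bot_iff, ← hb]
          exact le_sup_left
        rw [h1, finrank_bot] at hZdim
        have := ordq_pos (F := F) hrp
        omega
      obtain ⟨Y, hYP, hY, hYdim⟩ := exists_nondeg_half hrp hr2 h hgood hne' (hsub _ hPW) χ hχ
        (by rw [hdeg, hZdim]) hkill
      refine ⟨Y, hYP.trans hPW, hY, Or.inr ⟨?_, hsub Y (hYP.trans hPW)⟩⟩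
      rw [hYdim, cc, if_pos hev]
    · refine ⟨Z ⊔ Z', hPW, hgood, Or.inr ⟨?_, hsub _ hPW⟩⟩
      have h1 := Submodule.finrank_sup_add_finrank_inf_eq Z Z'
      rw [hdis.eq_bot, finrank_bot, hZ'dim, hZdim] at h1
      rw [cc, if_neg hev]
      omega

end Cfsg.Agent.Lib.Helper25.Sd
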