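import Cfsg.Agent.Lib.Helper25.Sd.Defs
import Cfsg.Agent.Lib.Helper25.Sd.PIECE
import Cfsg.Agent.Lib.Helper25.Sd.PERP
import Cfsg.Agent.Lib.Helper25.Sd.INVP
import Cfsg.Agent.Lib.Helper25.Elu.ORD

/-! Ladder SD (S5961), rung PIECES. -/

set_option autoImplicit false

namespace Cfsg.Agent.Lib.Helper25.Sd

open Module Polynomial Cfsg.Agent.Lib.Helper25.Elu Cfsg.Agent.Lib.Helper99

variable {F : Type*} [Field F] {V : Type*} [AddCommGroup V] [Module F V] [FiniteDimensional F V]
  {B : LinearMap.BilinForm F V} {T : End F V} {r : ℕ}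

theorem pieces_aux [Fintype F] {p : ℕ} [Fact p.Prime] [CharP F p] [Fact r.Prime] (hrp : r ≠ p)
    (hr2 : r ≠ 2) (h : Ctx B T r) (n : ℕ) :
    ∀ W : Submodule F V, Good B T W → finrank F W ≤ n →
    ∃ (α β : Type) (_ : Fintype α) (_ : Fintype β) (E : α ⊕ β → Submodule F V),
      (∀ l, Good B T (E l)) ∧
      (∀ l l', l ≠ l' → Orth B (E l) (E l')) ∧
      (∀ u, finrank F (E (Sum.inl u)) = 2 ∧ E (Sum.inl u) ≤ Fx T) ∧
      (∀ u, finrank F (E (Sum.inr u)) = cc F r ∧ E (Sum.inr u) ⊓ Fx T = ⊥) ∧ iSup E = W := by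
  have hbot : ∀ W : Submodule F V, W = ⊥ →
      ∃ (α β : Type) (_ : Fintype α) (_ : Fintype β) (E : α ⊕ β → Submodule F V),
      (∀ l, Good B T (E l)) ∧
      (∀ l l', l ≠ l' → Orth B (E l) (E l')) ∧
      (∀ u, finrank F (E (Sum.inl u)) = 2 ∧ E (Sum.inl u) ≤ Fx T) ∧
      (∀ u, finrank F (E (Sum.inr u)) = cc F r ∧ E (Sum.inr u) ⊓ Fx T = ⊥) ∧ iSup E = W := by
    intro W hW
    refine ⟨Empty, Empty, inferInstance, inferInstance, fun _ => ⊥, ?_, ?_, ?_, ?_, ?_⟩
    · rintro (l | l) <;> exact l.elim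
    · rintro (l | l) <;> exact l.elim
    · intro u; exact u.elim
    · intro u; exact u.elim
    · rw [hW]; simp
  have hcc : 0 < cc F r := by
    have := ordq_pos (F := F) hrp
    unfold cc
    split_ifs <;> omega
  have hr0 : 0 < r := (Fact.out : r.Prime).pos
  induction n with
  | zero =>
    intro W _ hn
    exact hbot W (Submodule.finrank_eq_zero.1 (Nat.le_zero.1 hn))
  | succ n ih =>
    intro W hW hn
    by_cases hne : W = ⊥
    · exact hbot W hne
    obtain ⟨P, hPW, hP, hcase⟩ := exists_piece hrp hr2 h hW hne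
    obtain ⟨hsup, -, hnd, hfin⟩ := perp_props h.alt hW.nd hP.nd hPW
    have hW' : Good B T (W ⊓ B.orthogonal P) :=
      ⟨hnd, fun v hv => ⟨hW.inv v hv.1, isInv_orthogonal h hr0 hP.inv v hv.2⟩⟩
    have hPpos : 0 < finrank F P := by
      rcases hcase with ⟨h1, -⟩ | ⟨h1, -⟩ <;> omega
    obtain ⟨α, β, iα, iβ, E, hG, hO, hl, hrr, hS⟩ := ih (W ⊓ B.orthogonal P) hW' (by omega)
    have hPE : ∀ l, Orth B P (E l) := by
      intro l u hu w hw
      have h1 : w ∈ W ⊓ B.orthogonal P := by
        rw [← hS]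
        exact (le_iSup E l) hw
      exact (LinearMap.BilinForm.mem_orthogonal_iff.1 h1.2) u hu
    rcases hcase with hc | hc
    · refine ⟨Option α, β, inferInstance, iβ,
        Sum.elim (fun o => o.elim P (fun u => E (Sum.inl u))) (fun u => E (Sum.inr u)),
        ?_, ?_, ?_, ?_, ?_⟩
      · rintro ((_ | u) | u)
        · exact hP
        · exact hG _
        · exact hG _
      · rintro ((_ | u) | u) ((_ | u') | u') hne'
        · exact absurd rfl hne'
        · exact hPE _
        · exact hPE _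
        · exact (hPE _).symm h.alt
        · exact hO _ _ (fun e => hne' (by rw [Sum.inl.inj e]))
        · exact hO _ _ (by simp)
        · exact (hPE _).symm h.alt
        · exact hO _ _ (by simp)
        · exact hO _ _ (fun e => hne' (by rw [Sum.inr.inj e]))
      · rintro (_ | u)
        · exact hc
        · exact hl u
      · intro u
        exact hrr u
      · rw [iSup_sum, iSup_option]
        simp only [Sum.elim_inl, Sum.elim_inr, Option.elim]
        rw [sup_assoc, ← iSup_sum, hS, hsup]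
    · refine ⟨α, Option β, iα, inferInstance,
        Sum.elim (fun u => E (Sum.inl u)) (fun o => o.elim P (fun u => E (Sum.inr u))),
        ?_, ?_, ?_, ?_, ?_⟩
      · rintro (u | (_ | u))
        · exact hG _
        · exact hP
        · exact hG _
      · rintro (u | (_ | u)) (u' | (_ | u')) hne'
        · exact hO _ _ (fun e => hne' (by rw [Sum.inl.inj e]))
        · exact (hPE _).symm h.alt
        · exact hO _ _ (by simp)
        · exact hPE _
        · exact absurd rfl hne'
        · exact hPE _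
        · exact hO _ _ (by simp)
        · exact (hPE _).symm h.alt
        · exact hO _ _ (fun e => hne' (by rw [Sum.inr.inj e]))
      · intro u
        exact hl u
      · rintro (_ | u)
        · exact hc
        · exact hrr u
      · rw [iSup_sum, iSup_option]
        simp only [Sum.elim_inl, Sum.elim_inr, Option.elim]
        rw [sup_left_comm, ← iSup_sum, hS, hsup]

/-- strong induction on `dim W`: PIECE gives `P ≤ W`; `W' = W ⊓ P^⊥` is good (PERP, INVP) of smaller dimension, `W = P ⊔ W'`;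
add `P` to the family of `W'` (prove it first for an arbitrary finite index type with `Option`, then reindex). -/
theorem exists_pieces [Fintype F] {p : ℕ} [Fact p.Prime] [CharP F p] [Fact r.Prime] (hrp : r ≠ p) (hr2 : r ≠ 2) (h : Ctx B T r) {W : Submodule F V}
    (hW : Good B T W) :
    ∃ (γ k : ℕ) (E : Fin γ ⊕ Fin k → Submodule F V), (∀ l, Good B T (E l)) ∧
      (∀ l l', l ≠ l' → Orth B (E l) (E l')) ∧
      (∀ u, finrank F (E (Sum.inl u)) = 2 ∧ E (Sum.inl u) ≤ Fx T) ∧
      (∀ u, finrank F (E (Sum.inr u)) = cc F r ∧ E (Sum.inr u) ⊓ Fx T = ⊥) ∧ iSup E = W := by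
  obtain ⟨α, β, iα, iβ, E, hG, hO, hl, hrr, hS⟩ := pieces_aux hrp hr2 h _ W hW le_rfl
  refine ⟨Fintype.card α, Fintype.card β,
    E ∘ (Equiv.sumCongr (Fintype.equivFin α).symm (Fintype.equivFin β).symm), ?_, ?_, ?_, ?_, ?_⟩
  · intro l
    exact hG _
  · intro l l' hne
    exact hO _ _ (fun e => hne ((Equiv.sumCongr _ _).injective e))
  · intro u
    exact hl _
  · intro u
    exact hrr _
  · rw [← hS]
    exact (Equiv.sumCongr (Fintype.equivFin α).symm (Fintype.equivFin β).symm).iSup_comp (g := E)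

end Cfsg.Agent.Lib.Helper25.Sd
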