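import Cfsg.Agent.Lib.Helper25.Sd.Defs
import Cfsg.Agent.Lib.Helper25.Sd.PIECES

/-! Ladder SD (S5961), rung PIECE0. -/

set_option autoImplicit false

namespace Cfsg.Agent.Lib.Helper25.Sd

open Module Polynomial Cfsg.Agent.Lib.Helper25.Elu Cfsg.Agent.Lib.Helper99

variable {F : Type*} [Field F] {V : Type*} [AddCommGroup V] [Module F V] [FiniteDimensional F V]
  {B : LinearMap.BilinForm F V} {T : End F V} {r : ℕ}

/-- PIECES for `W = ⊤`: if `k = 0` all pieces are `≤ Fx T`, so `Fx T = ⊤`, `T = 1`. Otherwise take `E (Sum.inr 0)`. -/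
theorem exists_piece0 [Fintype F] {p : ℕ} [Fact p.Prime] [CharP F p] [Fact r.Prime] (hrp : r ≠ p) (hr2 : r ≠ 2) (h : Ctx B T r) (hnd : NondegOn B ⊤) (hT : T ≠ 1) :
    ∃ P : Submodule F V, Good B T P ∧ finrank F P = cc F r ∧ P ⊓ Fx T = ⊥ := by
  obtain ⟨γ, k, E, hG, -, hl, hrr, hS⟩ := exists_pieces hrp hr2 h
    (W := ⊤) ⟨hnd, fun v _ => Submodule.mem_top⟩
  rcases Nat.eq_zero_or_pos k with hk | hk
  · exfalso
    subst hk
    apply hT
    have hle : (⊤ : Submodule F V) ≤ Fx T := by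
      rw [← hS]
      apply iSup_le
      rintro (u | u)
      · exact (hl u).2
      · exact u.elim0
    ext v
    have := hle (Submodule.mem_top (x := v))
    rw [mem_Fx] at this
    rw [this, Module.End.one_apply]
  · exact ⟨E (Sum.inr ⟨0, hk⟩), hG _, (hrr _).1, (hrr _).2⟩

end Cfsg.Agent.Lib.Helper25.Sd
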