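import Cfsg.Agent.Lib.Helper25.Sd.Defs
import Cfsg.Agent.Lib.Helper25.Sd.GEN
import Cfsg.Agent.Lib.Helper25.Sd.PIECES
import Cfsg.Agent.Lib.Helper25.Sd.PIECE0
import Cfsg.Agent.Lib.Helper25.Sd.INDEP
import Cfsg.Agent.Lib.Helper25.Sd.GRPFR
import Cfsg.Agent.Lib.Helper25.Sd.LABEL
import Cfsg.Agent.Lib.Helper25.Sd.GROUP
import Cfsg.Agent.Lib.Helper25.Sd.CCA
import Cfsg.Agent.Lib.Helper25.Sd.DVD
import Cfsg.Agent.Lib.Helper25.Sd.EXK
import Cfsg.Agent.Lib.Helper25.Dec.ARI
import Cfsg.Agent.Lib.Helper25.Elu.ORD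

/-! Ladder SD (S5961): the main theorem in terms of endomorphisms. -/

set_option autoImplicit false

namespace Cfsg.Agent.Lib.Helper25.Sd

open Module Cfsg.Agent.Lib.Helper25.Elu Cfsg.Agent.Lib.Helper99

variable {F : Type*} [Field F] [Fintype F] {p : ℕ} [Fact p.Prime] [CharP F p] {r : ℕ} [Fact r.Prime]
  {ι : Type} [Fintype ι] {B : LinearMap.BilinForm F (ι → F)}

theorem pieces_top (hrp : r ≠ p) (hr2 : r ≠ 2) (hnd : NondegOn B ⊤) {T : End F (ι → F)}
    (h : Ctx B T r) :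
    ∃ (γ k : ℕ) (E : Fin γ ⊕ Fin k → Submodule F (ι → F)), (∀ l, Good B T (E l)) ∧
      (∀ l l', l ≠ l' → Orth B (E l) (E l')) ∧
      (∀ u, finrank F (E (Sum.inl u)) = 2 ∧ E (Sum.inl u) ≤ Fx T) ∧
      (∀ u, finrank F (E (Sum.inr u)) = cc F r ∧ E (Sum.inr u) ⊓ Fx T = ⊥) ∧ iSup E = ⊤ ∧
      2 * γ + cc F r * k = Fintype.card ι := by
  classical
  obtain ⟨γ, k, E, hgood, horth, h2, hc, htop⟩ :=
    exists_pieces hrp hr2 h (W := ⊤) ⟨hnd, isInv_top T⟩
  refine ⟨γ, k, E, hgood, horth, h2, hc, htop, ?_⟩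
  have hind : iSupIndep E := iSupIndep_of_orth h.alt (fun l => (hgood l).nd) horth
  have h1 := sum_finrank_eq' hind Finset.univ
  have h3 : (⨆ j ∈ (Finset.univ : Finset (Fin γ ⊕ Fin k)), E j) = ⊤ := by
    rw [← htop]
    simp
  rw [h3, finrank_top, Module.finrank_fintype_fun_eq_card, Fintype.sum_sum_type,
    Finset.sum_congr rfl (fun u _ => (h2 u).1), Finset.sum_congr rfl (fun u _ => (hc u).1)] at h1
  simp only [Finset.sum_const, Finset.card_univ, Fintype.card_fin, smul_eq_mul] at h1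
  rw [← h1]
  ring

theorem bw (hrp : r ≠ p) (hr2 : r ≠ 2) (hnd : NondegOn B ⊤) {a t : ℕ}
    (hat : Fintype.card ι = a * t) (ha : 2 ≤ a) (hae : Even a) (ht : 2 ≤ t)
    (hR : cc F r ≤ a ∧ Fintype.card ι % cc F r = t * (a % cc F r)) {T : End F (ι → F)}
    (h : Ctx B T r) : SStab B T a t := by
  have hr : r.Prime := Fact.out
  obtain ⟨γ, k, E, hgood, horth, h2, hc, htop, hsum⟩ := pieces_top hrp hr2 hnd h
  have hc0 := cc_pos (F := F) hrp
  have hk : k ≤ t * (a / cc F r) := by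
    by_contra hcon
    push Not at hcon
    have h1 : cc F r * (t * (a / cc F r) + 1) ≤ cc F r * k := Nat.mul_le_mul_left _ hcon
    have h3 : t * (a % cc F r) < cc F r := by
      rw [← hR.2]
      exact Nat.mod_lt _ hc0
    have h4 : a * t = cc F r * (t * (a / cc F r)) + t * (a % cc F r) := by
      conv_lhs => rw [← Nat.div_add_mod a (cc F r)]
      ring
    rw [hat, h4] at hsum
    rw [Nat.mul_add, mul_one] at h1
    omega
  rw [hat] at hsum
  obtain ⟨f₁, f₂, hfib⟩ := exists_label (cc_even F r) hae hc0 hsum hk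
  exact sstab_of_pieces h hr.pos E hgood horth (fun u => (h2 u).1) (fun u => (hc u).1) htop f₁ f₂
    hfib (by omega) ht

theorem exd (hrp : r ≠ p) (hr2 : r ≠ 2) (hB : B.IsAlt) (hnd : NondegOn B ⊤) {a t : ℕ}
    (hat : Fintype.card ι = a * t) (ha : 2 ≤ a) (hae : Even a) (ht : 2 ≤ t) :
    ∃ D : Fin t → Submodule F (ι → F), SDec B a D := by
  have hr : r.Prime := Fact.out
  have h : Ctx B (1 : End F (ι → F)) r := ⟨hB, fun _ _ => rfl, one_pow r⟩
  obtain ⟨γ, k, E, hgood, horth, h2, hc, htop, hsum⟩ := pieces_top hrp hr2 hnd h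
  have hc0 := cc_pos (F := F) hrp
  have hk0 : k = 0 := by
    by_contra hne
    have hu := hc ⟨0, Nat.pos_of_ne_zero hne⟩
    have h1 : Fx (1 : End F (ι → F)) = ⊤ := by
      rw [Fx, sub_self, LinearMap.ker_zero]
    rw [h1, inf_top_eq] at hu
    rw [hu.2, finrank_bot] at hu
    omega
  rw [hat] at hsum
  obtain ⟨f₁, f₂, hfib⟩ := exists_label (cc_even F r) hae hc0 hsum (by rw [hk0]; exact Nat.zero_le _)
  obtain ⟨D, hD, -⟩ := sstab_of_pieces h hr.pos E hgood horth (fun u => (h2 u).1)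
    (fun u => (hc u).1) htop f₁ f₂ hfib (by omega) ht
  exact ⟨D, hD⟩

theorem isInv_of_map_eq' {T : End F (ι → F)} {W : Submodule F (ι → F)} (h : W.map T = W) :
    IsInv T W := isInv_iff_map_le.2 h.le

theorem ne_one_of_fix {T : End F (ι → F)} {m : ℕ} (hm : 0 < m)
    (h : finrank F (Fx T) + m = Fintype.card ι) : T ≠ 1 := by
  intro h1
  rw [h1, Fx, sub_self, LinearMap.ker_zero, finrank_top, Module.finrank_fintype_fun_eq_card] at h
  omega

theorem fw (hrp : r ≠ p) (hr2 : r ≠ 2) (hnd : NondegOn B ⊤) {a t : ℕ}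
    (hat : Fintype.card ι = a * t) (ha : 2 ≤ a) (ht : 2 ≤ t) {T₀ : End F (ι → F)}
    (h₀ : Ctx B T₀ r) (hT₀ : T₀ ≠ 1)
    (H : ∀ T : End F (ι → F), Ctx B T r → T ≠ 1 → SStab B T a t) :
    cc F r ≤ a ∧ Fintype.card ι % cc F r = t * (a % cc F r) := by
  have hr : r.Prime := Fact.out
  have hrF : (r : F) ≠ 0 := natCast_ne_zero hrp
  have hc0 := cc_pos (F := F) hrp
  have hfr : finrank F (ι → F) = Fintype.card ι := Module.finrank_fintype_fun_eq_card F
  obtain ⟨P, hP, hPdim, hPfix⟩ := exists_piece0 hrp hr2 h₀ hnd hT₀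
  have hcn : cc F r ≤ Fintype.card ι := by
    rw [← hPdim, ← hfr]
    exact Submodule.finrank_le P
  have hca : cc F r ≤ a := by
    by_contra hac
    push Not at hac
    obtain ⟨T', h', hfix'⟩ := exists_elt hnd hrF hr.pos h₀ hP hPfix 1 (by
      rw [hPdim, mul_one, hfr]; exact hcn)
    rw [hPdim, mul_one, hfr] at hfix'
    have hT1' : T' ≠ 1 := ne_one_of_fix hc0 hfix'
    obtain ⟨D', hD', σ', hσ'⟩ := H T' h' hT1'
    have hex : ∃ j, σ' j ≠ j := by
      by_contra hcon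
      push Not at hcon
      apply hT1'
      have hle : ∀ j, D' j ≤ Fx T' := by
        intro j
        have hinv : IsInv T' (D' j) := isInv_of_map_eq' (by rw [hσ' j, hcon j])
        obtain ⟨b, hb⟩ := exists_finrank_eq hrp h' (W := D' j) ⟨hD'.nd j, hinv⟩
        rw [hD'.dec.finrank_eq j] at hb
        have hb0 : b = 0 := by
          rcases Nat.eq_zero_or_pos b with h | h
          · exact h
          · have : cc F r * 1 ≤ cc F r * b := Nat.mul_le_mul_left _ h
            omega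
        rw [hb0, mul_zero, add_zero] at hb
        have heq : D' j ⊓ Fx T' = D' j := by
          apply Submodule.eq_of_le_of_finrank_eq inf_le_left
          rw [← hb, hD'.dec.finrank_eq j]
        rw [← heq]
        exact inf_le_right
      have htop : Fx T' = ⊤ := by
        rw [eq_top_iff, ← hD'.dec.iSup_eq_top]
        exact iSup_le hle
      have h0 : T' - 1 = 0 := LinearMap.ker_eq_top.1 htop
      exact sub_eq_zero.1 h0
    obtain ⟨j, hj⟩ := hex
    have hob := orbit_bound hD'.dec T' σ' hσ' hr h'.pow hj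
    have hle1 := cc_le_pred (F := F) hrp hr2
    have hr3 : 2 ≤ r := hr.two_le
    have : 2 * (r - 1) ≤ a * (r - 1) := Nat.mul_le_mul_right _ ha
    have hfix'' : finrank F (LinearMap.ker (T' - 1)) + cc F r = Fintype.card ι := hfix'
    omega
  refine ⟨hca, ?_⟩
  obtain ⟨T, h, hfix⟩ := exists_elt hnd hrF hr.pos h₀ hP hPfix (Fintype.card ι / cc F r) (by
    rw [hPdim, hfr]; exact Nat.mul_div_le _ _)
  rw [hPdim, hfr] at hfix
  have hdiv : 0 < Fintype.card ι / cc F r := Nat.div_pos hcn hc0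
  have hT1 : T ≠ 1 := ne_one_of_fix (Nat.mul_pos hc0 hdiv) hfix
  have hfix2 : finrank F (LinearMap.ker (T - 1)) = Fintype.card ι % cc F r := by
    have h1 := Nat.div_add_mod (Fintype.card ι) (cc F r)
    have h2 : finrank F (LinearMap.ker (T - 1)) + cc F r * (Fintype.card ι / cc F r) =
      Fintype.card ι := hfix
    omega
  obtain ⟨D, hD, σ, hσ⟩ := H T h hT1
  have hlt : finrank F (LinearMap.ker (T - 1)) < a := by
    rw [hfix2]
    exact lt_of_lt_of_le (Nat.mod_lt _ hc0) hca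
  have hσ1 := sigma_eq_one hD.dec T σ hσ hr h.pow hlt
  have hinv : ∀ j, IsInv T (D j) := by
    intro j
    apply isInv_of_map_eq'
    rw [hσ j, hσ1, Equiv.Perm.one_apply]
  choose y hy using fun j => exists_finrank_eq hrp h (W := D j) ⟨hD.nd j, hinv j⟩
  have hsum := sum_finrank_inf_le hD.dec.indep (LinearMap.ker (T - 1))
  rw [hfix2] at hsum
  exact Cfsg.Agent.Lib.Helper25.Dec.arI hc0 hat
    (fun j => finrank F ↥(D j ⊓ LinearMap.ker (T - 1))) y
    (fun j => by rw [← hy j, hD.dec.finrank_eq j]) hsum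

end Cfsg.Agent.Lib.Helper25.Sd
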