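import Cfsg.Agent.Lib.Helper25.Sd.Defs

/-! Ladder SD (S5961), rung SCAL. -/

set_option autoImplicit false

namespace Cfsg.Agent.Lib.Helper25.Sd

open Module Polynomial Cfsg.Agent.Lib.Helper25.Elu Cfsg.Agent.Lib.Helper99

variable {F : Type*} [Field F] {V : Type*} [AddCommGroup V] [Module F V] [FiniteDimensional F V]
  {B : LinearMap.BilinForm F V} {T : End F V} {r : ℕ}

omit [FiniteDimensional F V] in
theorem iso_pow' (h : IsIso B T) (s : ℕ) : IsIso B (T ^ s) := by
  induction s with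
  | zero => intro u v; rfl
  | succ s ih =>
    intro u v
    rw [pow_succ', Module.End.mul_apply, Module.End.mul_apply, h, ih]

omit [FiniteDimensional F V] in
theorem sq_eq_one_of_iso (hnd : NondegOn B ⊤) [Nontrivial V] {z : F}
    (h : IsIso B (z • (1 : End F V))) : z * z = 1 := by
  obtain ⟨u, hu⟩ := exists_ne (0 : V)
  obtain ⟨v, -, hv⟩ := hnd u trivial hu
  have h1 := h u v
  simp only [LinearMap.smul_apply, Module.End.one_apply, map_smul, smul_eq_mul] at h1
  have h2 : (z * z) * B u v = 1 * B u v := by rw [one_mul, mul_assoc]; exact h1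
  exact mul_right_cancel₀ hv h2

omit [FiniteDimensional F V] in
/-- `B (T^r u) (T^r v) = B u v = z^2 B u v` with `B u v ≠ 0`: `z^2 = 1`. `(z • T)^r = z^r z • 1 = z^(r+1) • 1 = 1` (`r + 1` even). -/
theorem scal_ctx (hB : B.IsAlt) (hnd : NondegOn B ⊤) [Nontrivial V] (hT : IsIso B T) (hodd : Odd r) {z : F}
    (hz : T ^ r = z • 1) : z * z = 1 ∧ Ctx B (z • T) r := by
  have hzz : z * z = 1 := by
    apply sq_eq_one_of_iso hnd
    rw [← hz]
    exact iso_pow' hT r
  refine ⟨hzz, hB, ?_, ?_⟩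
  · intro u v
    simp only [LinearMap.smul_apply, map_smul, smul_eq_mul]
    rw [hT u v, ← mul_assoc, hzz, one_mul]
  · obtain ⟨k, rfl⟩ := hodd
    rw [_root_.smul_pow, hz, smul_smul, ← pow_succ]
    have : z ^ (2 * k + 1 + 1) = (z * z) ^ (k + 1) := by ring
    rw [this, hzz, one_pow, one_smul]

omit [FiniteDimensional F V] in
/-- `T = z • 1` isometry: `z^2 = 1`; `T^r = 1`: `z^r = 1`; `r` odd: `z = 1`. -/
theorem not_scalar (h : Ctx B T r) (hnd : NondegOn B ⊤) [Nontrivial V] (hodd : Odd r) (hT : T ≠ 1) (z : F) :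
    T ≠ z • 1 := by
  intro hz
  apply hT
  have hzz : z * z = 1 := by
    apply sq_eq_one_of_iso hnd
    rw [← hz]
    exact h.iso
  have h1 := h.pow
  rw [hz, _root_.smul_pow, one_pow] at h1
  obtain ⟨k, rfl⟩ := hodd
  have h2 : z ^ (2 * k + 1) = (z * z) ^ k * z := by ring
  rw [h2, hzz, one_pow, one_mul] at h1
  rw [hz, h1]

end Cfsg.Agent.Lib.Helper25.Sd
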